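import Cfsg.Agent.Stability.SL2Basic
import Mathlib

/-!
# Facts about `PSL(2, p)` and its two standard elements of order `p`
-/

set_option linter.unusedSectionVars false
set_option autoImplicit false

noncomputable section

namespace Cfsg.Agent.SL2Mod

open Matrix Cfsg.Agent.Stability.SL2

variable {p : ℕ} [hp : Fact p.Prime]

/-- The image in `PSL(2, p)`. -/
abbrev pr (p : ℕ) [Fact p.Prime] :
    S2 (ZMod p) →* Matrix.ProjectiveSpecialLinearGroup (Fin 2) (ZMod p) :=
  QuotientGroup.mk' _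

theorem pr_surjective : Function.Surjective (pr p) := QuotientGroup.mk'_surjective _

theorem pr_eq_one_iff {g : S2 (ZMod p)} : pr p g = 1 ↔ IsScalarMat g := by
  rw [← MonoidHom.mem_ker, QuotientGroup.ker_mk', Matrix.SpecialLinearGroup.mem_center_iff]
  constructor
  · rintro ⟨r, -, hr⟩
    have e : ∀ i j, g i j = Matrix.scalar (Fin 2) r i j := fun i j => by rw [hr]
    exact ⟨by simp [e 0 1], by simp [e 1 0], by simp [e 0 0, e 1 1]⟩
  · intro h
    refine ⟨g 0 0, by rw [Fintype.card_fin, sq]; exact h.sq, ?_⟩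
    ext i j
    fin_cases i <;> fin_cases j <;> simp [h.1, h.2.1, h.2.2]

theorem pr_eq_iff {g h : S2 (ZMod p)} : pr p g = pr p h ↔ IsScalarMat (g * h⁻¹) := by
  rw [← pr_eq_one_iff, map_mul, map_inv, mul_inv_eq_one]

theorem closure_pr : Subgroup.closure ({pr p (upperU 1), pr p (lowerU 1)} :
    Set (Matrix.ProjectiveSpecialLinearGroup (Fin 2) (ZMod p))) = ⊤ := by
  have h := congrArg (Subgroup.map (pr p)) (closure_upperU_lowerU (p := p))
  rwa [MonoidHom.map_closure, Subgroup.map_top_of_surjective _ pr_surjective, Set.image_insert_eq,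
    Set.image_singleton] at h

theorem pr_upper_ne_one : pr p (upperU (1 : ZMod p)) ≠ 1 := fun h => by
  have := (pr_eq_one_iff.1 h).1; simp at this

theorem pr_upper_pow (n : ℕ) : pr p (upperU (1 : ZMod p)) ^ n = pr p (upperU (n : ZMod p)) := by
  rw [← map_pow, upperU_pow, mul_one]

theorem pr_lower_pow (n : ℕ) : pr p (lowerU (1 : ZMod p)) ^ n = pr p (lowerU (n : ZMod p)) := by
  rw [← map_pow, lowerU_pow, mul_one]

theorem lower_not_upper (i : ℕ) : pr p (lowerU (1 : ZMod p)) ≠ pr p (upperU (1 : ZMod p)) ^ i := by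
  rw [pr_upper_pow, Ne, pr_eq_iff]
  intro h
  have := h.2.1
  obtain ⟨i1, i2, i3, i4⟩ := inv_entries (upperU (i : ZMod p))
  rw [mul_entry, i1, i3] at this
  simp at this

/-- The element commuting with both standard elements is trivial. -/
theorem eq_one_of_commute {M : Matrix.ProjectiveSpecialLinearGroup (Fin 2) (ZMod p)} (hp2 : p ≠ 2)
    (hU : M * pr p (upperU 1) = pr p (upperU 1) * M) (hL : M * pr p (lowerU 1) = pr p (lowerU 1) * M) :
    M = 1 := by
  obtain ⟨g, rfl⟩ := pr_surjective M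
  have h2 : (2 : ZMod p) ≠ 0 := fun h => by
    have h' : ((2 : ℕ) : ZMod p) = 0 := by exact_mod_cast h
    rw [ZMod.natCast_eq_zero_iff] at h'
    exact hp2 ((Nat.prime_dvd_prime_iff_eq hp.out Nat.prime_two).1 h')
  rw [← map_mul, ← map_mul, pr_eq_iff] at hU hL
  obtain ⟨u1, u2, u3⟩ := hU
  obtain ⟨l1, l2, l3⟩ := hL
  simp only [_root_.mul_inv_rev, mul_entry, (inv_entries g).1, (inv_entries g).2.1, (inv_entries g).2.2.1,
    (inv_entries g).2.2.2, (inv_entries (upperU (1 : ZMod p))).1, (inv_entries (upperU (1 : ZMod p))).2.1,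
    (inv_entries (upperU (1 : ZMod p))).2.2.1, (inv_entries (upperU (1 : ZMod p))).2.2.2,
    (inv_entries (lowerU (1 : ZMod p))).1, (inv_entries (lowerU (1 : ZMod p))).2.1,
    (inv_entries (lowerU (1 : ZMod p))).2.2.1, (inv_entries (lowerU (1 : ZMod p))).2.2.2,
    upperU_00, upperU_01, upperU_10, upperU_11, lowerU_00, lowerU_01, lowerU_10, lowerU_11]
    at u1 u2 u3 l1 l2 l3
  have hd := det_eq g
  rw [pr_eq_one_iff]
  have hc : g 1 0 = 0 := by
    have e : g 1 0 * g 1 0 = 0 := by grind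
    exact mul_self_eq_zero.1 e
  have hb : g 0 1 = 0 := by
    have e : g 0 1 * g 0 1 = 0 := by grind
    exact mul_self_eq_zero.1 e
  exact ⟨hb, hc, by grind⟩

/-- The order-two relation pins the exponent. -/
theorem exponent_eq_one {h : ZMod p} (hp2 : p ≠ 2) (h0 : h ≠ 0)
    (hsq : pr p (upperU 1 * lowerU (-h) * upperU 1) ^ 2 = 1) : h = 1 := by
  have h2 : (2 : ZMod p) ≠ 0 := fun e => by
    have h' : ((2 : ℕ) : ZMod p) = 0 := by exact_mod_cast e
    rw [ZMod.natCast_eq_zero_iff] at h'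
    exact hp2 ((Nat.prime_dvd_prime_iff_eq hp.out Nat.prime_two).1 h')
  rw [← map_pow, pr_eq_one_iff] at hsq
  have := hsq.2.1
  simp [pow_two, mul_entry] at this
  have h3 : h * ((1 - h) * 2) = 0 := by linear_combination -this
  rcases mul_eq_zero.1 h3 with h4 | h4
  · exact absurd h4 h0
  · exact (sub_eq_zero.1 ((mul_eq_zero.1 h4).resolve_right h2)).symm

theorem relation_one : pr p (upperU (1 : ZMod p) * lowerU (-1) * upperU 1) ^ 2 = 1 := by
  rw [← map_pow, pr_eq_one_iff]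
  refine ⟨?_, ?_, ?_⟩ <;> simp [pow_two, mul_entry]

/-- An element of order `p` off the upper unipotent group is an upper conjugate of a lower one. -/
theorem exists_lower {M : Matrix.ProjectiveSpecialLinearGroup (Fin 2) (ZMod p)} (hp2 : p ≠ 2)
    (hM : M ^ p = 1) (hn : ∀ i : ℕ, M ≠ pr p (upperU 1) ^ i) :
    ∃ x : ℕ, ∃ h : ℕ, (h : ZMod p) ≠ 0 ∧
      pr p (upperU 1) ^ x * M * (pr p (upperU 1) ^ x)⁻¹ = pr p (lowerU 1) ^ h := by
  have h2 : (2 : ZMod p) ≠ 0 := fun e => by
    have h' : ((2 : ℕ) : ZMod p) = 0 := by exact_mod_cast e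
    rw [ZMod.natCast_eq_zero_iff] at h'
    exact hp2 ((Nat.prime_dvd_prime_iff_eq hp.out Nat.prime_two).1 h')
  obtain ⟨g, rfl⟩ := pr_surjective M
  rw [← map_pow, pr_eq_one_iff] at hM
  -- the trace is `± 2`
  have htr : (g 0 0 + g 1 1) * (g 0 0 + g 1 1) = 4 := by
    have h1 := ZMod.trace_pow_card (g : Matrix (Fin 2) (Fin 2) (ZMod p))
    rw [ZMod.pow_card, Matrix.trace_fin_two, Matrix.trace_fin_two, ← Matrix.SpecialLinearGroup.coe_pow] at h1
    rw [← h1]
    have h3 := hM.sq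
    rw [← hM.2.2]
    linear_combination 4 * h3
  have hc : g 1 0 ≠ 0 := by
    intro hc
    have hd := det_eq g
    rw [hc, mul_zero, sub_zero] at hd
    have e : (g 0 0 - g 1 1) * (g 0 0 - g 1 1) = 0 := by linear_combination htr - 4 * hd
    have e' := sub_eq_zero.1 (mul_self_eq_zero.1 e)
    refine hn ((g 0 1 * g 0 0).val) ?_
    rw [pr_upper_pow, ZMod.natCast_zmod_val, pr_eq_iff]
    obtain ⟨i1, i2, i3, i4⟩ := inv_entries (upperU (g 0 1 * g 0 0))
    refine ⟨?_, ?_, ?_⟩ <;> simp only [mul_entry, i1, i2, i3, i4, upperU_00, upperU_01, upperU_10, upperU_11, hc] <;>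
      grind
  set x : ZMod p := (g 1 1 - g 0 0) / (2 * g 1 0) with hx
  have hx' : x * (2 * g 1 0) = g 1 1 - g 0 0 := div_mul_cancel₀ _ (mul_ne_zero h2 hc)
  set s := g 0 0 + x * g 1 0 with hs
  have hss : s * s = 1 := by
    have : 4 * (s * s) = 4 * 1 := by rw [hs]; linear_combination htr + (4 * g 0 0 + x * (2 * g 1 0) + g 1 1 - g 0 0) * hx'
    exact mul_left_cancel₀ (by have : (4 : ZMod p) = 2 * 2 := by norm_num
                               rw [this]; exact mul_ne_zero h2 h2) this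
  refine ⟨x.val, (g 1 0 * s).val, ?_, ?_⟩
  · rw [ZMod.natCast_zmod_val]
    exact mul_ne_zero hc fun h => by rw [h, zero_mul] at hss; exact zero_ne_one hss
  rw [pr_upper_pow, pr_lower_pow, ZMod.natCast_zmod_val, ZMod.natCast_zmod_val, ← map_inv, ← map_mul,
    ← map_mul, pr_eq_iff]
  obtain ⟨i1, i2, i3, i4⟩ := inv_entries (upperU x)
  obtain ⟨j1, j2, j3, j4⟩ := inv_entries (lowerU (g 1 0 * s))
  have hd := det_eq g
  refine ⟨?_, ?_, ?_⟩ <;> simp only [mul_entry, i1, i2, i3, i4, j1, j2, j3, j4, upperU_00, upperU_01,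
    upperU_10, upperU_11, lowerU_00, lowerU_01, lowerU_10, lowerU_11] <;> grind

theorem torus_upper {a : ZMod p} (ha : a ≠ 0) :
    ∃ D, D * pr p (upperU 1) * D⁻¹ = pr p (upperU (a * a)) := by
  let d : S2 (ZMod p) := ⟨!![a, 0; 0, a⁻¹], by simp [Matrix.det_fin_two_of, ha]⟩
  refine ⟨pr p d, ?_⟩
  rw [← map_inv, ← map_mul, ← map_mul]
  congr 1
  obtain ⟨i1, i2, i3, i4⟩ := inv_entries d
  refine ext4 ?_ ?_ ?_ ?_ <;> simp only [mul_entry, i1, i2, i3, i4] <;> simp [d, ha]

end Cfsg.Agent.SL2Mod
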