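import Cfsg.Agent.SL2Mod.Factor
import Cfsg.Agent.SL2Mod.PSLFacts
import Cfsg.Agent.DefOne.FaithfulMain
import Cfsg.Agent.BlkChar.PModular
import Cfsg.Agent.PSolv.Basic
import Cfsg.Agent.CharExt.Extension
import Cfsg.Agent.S4468

/-!
# Groups with a faithful character of degree `(p - 1) / 2`
-/

set_option linter.style.haveILetI false
set_option linter.unusedSectionVars false
set_option autoImplicit false

noncomputable section

namespace Cfsg.Agent.SL2Mod

open scoped Classical MatrixGroups commutatorElement ComplexConjugate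
open Cfsg Cfsg.Agent.Stability.SL2

universe u

variable {p : ℕ} [hp : Fact p.Prime]

/-- The subgroup generated by the elements of order `p`. -/
def pGen (p : ℕ) (G : Type u) [Group G] : Subgroup G := Subgroup.closure {g : G | g ^ p = 1}

instance pGen_normal (G : Type u) [Group G] : (pGen p G).Normal := by
  refine ⟨fun n hn g => ?_⟩
  induction hn using Subgroup.closure_induction with
  | mem x hx =>
    refine Subgroup.subset_closure ?_
    show (g * x * g⁻¹) ^ p = 1
    rw [conj_pow, show x ^ p = 1 from hx, mul_one, mul_inv_cancel]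
  | one => simp
  | mul x y _ _ hx hy => simpa [mul_assoc] using mul_mem hx hy
  | inv x _ hx => rw [show g * x⁻¹ * g⁻¹ = (g * x * g⁻¹)⁻¹ by group]; exact inv_mem hx

theorem closure_pGen (G : Type u) [Group G] :
    Subgroup.closure {g : pGen p G | g ^ p = 1} = ⊤ := by
  have : {g : pGen p G | g ^ p = 1} = ((↑) : pGen p G → G) ⁻¹' {g : G | g ^ p = 1} := by
    ext g
    simp [Subtype.ext_iff]
  rw [this]
  exact Subgroup.closure_closure_coe_preimage

variable {G : Type u} [Group G] [Finite G]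

theorem card_of_pow_eq_one {g : G} (hg : g ^ p = 1) (h1 : g ≠ 1) :
    orderOf g = p ∧ Nat.card (Subgroup.zpowers g) = p := by
  have h : orderOf g = p := (hp.out.eq_one_or_self_of_dvd _ (orderOf_dvd_of_pow_eq_one hg)).resolve_left
    fun h => h1 (orderOf_eq_one_iff.1 h)
  exact ⟨h, by rw [Nat.card_zpowers, h]⟩

theorem exists_sylow_gen (hsq : ¬ p ^ 2 ∣ Nat.card G) {g : G} (hg : g ^ p = 1) (h1 : g ≠ 1) :
    ∃ Q : Sylow p G, (Q : Subgroup G) = Subgroup.zpowers g ∧ Nat.card Q = p := by
  obtain ⟨ho, hc⟩ := card_of_pow_eq_one hg h1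
  obtain ⟨Q, hQ⟩ := (IsPGroup.of_card (p := p) (n := 1) (by rw [hc, pow_one]) :
    IsPGroup p (Subgroup.zpowers g)).exists_le_sylow
  obtain ⟨a, ha⟩ := Q.2.exists_card_eq
  have ha1 : a ≤ 1 := by
    by_contra h
    exact hsq ((pow_dvd_pow p (by omega : 2 ≤ a)).trans (ha ▸ Subgroup.card_subgroup_dvd_card _))
  have hle : Nat.card (Q : Subgroup G) ≤ p := by
    rw [ha]
    calc p ^ a ≤ p ^ 1 := Nat.pow_le_pow_right hp.out.pos ha1
      _ = p := pow_one p
  have e := Subgroup.eq_of_le_of_card_ge hQ (by rw [hc]; exact hle)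
  exact ⟨Q, e.symm, by show Nat.card ↥(Q : Subgroup G) = p; rw [← e, hc]⟩

/-- An element of a quotient of order `p` lifts. -/
theorem exists_lift_p {H : Type*} [Group H] (f : G →* H) (hf : Function.Surjective f)
    (hsq : ¬ p ^ 2 ∣ Nat.card G) {y : H} (hy : y ^ p = 1) (hy1 : y ≠ 1) :
    ∃ w : G, f w = y ∧ w ^ p = 1 ∧ w ≠ 1 := by
  obtain ⟨x, rfl⟩ := hf y
  have hd : p ∣ orderOf x := by
    have h1 : orderOf (f x) = p :=
      (hp.out.eq_one_or_self_of_dvd _ (orderOf_dvd_of_pow_eq_one hy)).resolve_left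
        fun h => hy1 (orderOf_eq_one_iff.1 h)
    exact (dvd_of_eq h1.symm).trans (orderOf_map_dvd f x)
  obtain ⟨m, hm⟩ := hd
  have hmp : ¬ p ∣ m := fun h => hsq (by
    rw [sq]; exact (hm ▸ Nat.mul_dvd_mul_left p h).trans (orderOf_dvd_natCard x))
  obtain ⟨t, ht⟩ : ∃ t : ℕ, m * t ≡ 1 [MOD p] := by
    refine ⟨((m : ZMod p)⁻¹).val, ?_⟩
    rw [← ZMod.natCast_eq_natCast_iff, Nat.cast_mul, ZMod.natCast_zmod_val, Nat.cast_one]
    exact mul_inv_cancel₀ fun h => hmp ((ZMod.natCast_eq_zero_iff _ _).1 h)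
  have hfx : f (x ^ (m * t)) = f x := by
    rw [map_pow]
    conv_rhs => rw [← pow_one (f x)]
    exact pow_eq_pow_iff_modEq.2 (ht.of_dvd (orderOf_dvd_of_pow_eq_one hy))
  refine ⟨x ^ (m * t), hfx, ?_, fun h => hy1 ?_⟩
  · rw [← pow_mul, show m * t * p = p * m * t by ring, pow_mul, ← hm, pow_orderOf_eq_one, one_pow]
  · rw [← hfx, h, map_one]

/-- `z ^ p = 1` in a subgroup of order prime to `p` forces `z = 1`. -/
theorem eq_one_of_pow_of_not_dvd {K : Subgroup G} (hK : ¬ p ∣ Nat.card K) {z : G} (hz : z ∈ K)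
    (h : z ^ p = 1) : z = 1 := by
  by_contra h1
  refine hK ?_
  rw [← (card_of_pow_eq_one h h1).1, ← Subgroup.orderOf_mk z hz]
  exact orderOf_dvd_natCard _

theorem isCharacter_comp_subtype {χ : G → ℂ} (hχ : IsCharacter G χ) (H : Subgroup G) :
    IsCharacter H (fun x : H => χ x) ∧ charDegree (fun x : H => χ x) = charDegree χ :=
  ⟨Char.isCharacter_restrict hχ H, by simp [charDegree]⟩

/-- The group generated by elements of order `p` maps onto `PSL(2, p)`. -/
theorem exists_onto (hp5 : 5 ≤ p) (hsq : ¬ p ^ 2 ∣ Nat.card G) (P : Sylow p G)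
    (hP : Nat.card P = p) (hnn : ¬ (P : Subgroup G).Normal) {χ : G → ℂ} (hχ : IsCharacter G χ)
    (hfaith : ∀ g, χ g = χ 1 → g = 1) {n : ℕ} (hn : charDegree χ = n) (hnp : 2 * n < p) :
    ∃ φ : pGen p G →* Matrix.ProjectiveSpecialLinearGroup (Fin 2) (ZMod p),
      Function.Surjective φ := by
  letI := Fintype.ofFinite G
  set G0 := pGen p G with hG0
  haveI : Fintype G0 := Fintype.ofFinite _
  have hPG : (P : Subgroup G) ≤ G0 := fun x hx => Subgroup.subset_closure (by
    show x ^ p = 1
    have h1 := pow_card_eq_one' (x := (⟨x, hx⟩ : (P : Subgroup G)))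
    rw [hP] at h1
    exact congrArg Subtype.val h1)
  set P0 : Sylow p G0 := P.subtype hPG with hP0
  have hP0c : Nat.card P0 = p := (Nat.card_congr (Subgroup.subgroupOfEquivOfLe hPG).toEquiv).trans hP
  have hnotp : ¬ IsPGroup p G0 := by
    intro h
    obtain ⟨Q, hQ⟩ := h.exists_le_sylow
    have hQc : Nat.card (Q : Subgroup G) = p := (Nat.card_congr (Q.equiv P).toEquiv).trans hP
    have e : (P : Subgroup G) = G0 := by
      refine Subgroup.eq_of_le_of_card_ge hPG ?_
      calc Nat.card G0 ≤ Nat.card (Q : Subgroup G) := Subgroup.card_le_of_le hQ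
        _ = Nat.card (P : Subgroup G) := hQc.trans hP.symm
    exact hnn (e ▸ pGen_normal G)
  haveI : IsCyclic ↥(P0 : Subgroup G0) := isCyclic_of_prime_card hP0c
  obtain ⟨u, hu⟩ := IsCyclic.exists_generator (α := ↥(P0 : Subgroup G0))
  have hu' : (P0 : Subgroup G0) = Subgroup.zpowers (u : G0) := by
    refine le_antisymm (fun x hx => ?_) (Subgroup.zpowers_le.2 u.2)
    obtain ⟨z, hz⟩ := Subgroup.mem_zpowers_iff.1 (hu ⟨x, hx⟩)
    exact ⟨z, congrArg Subtype.val hz⟩
  have hord : orderOf (u : G0) = p := by rw [← Nat.card_zpowers, ← hu']; exact hP0c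
  obtain ⟨m, ρ, hρ⟩ := hχ
  have hmn : m = n := by
    rw [← hn, charDegree, ← hρ, Representation.char_one]; simp
  subst hmn
  have hfaith' : ∀ g : G0, (ρ.comp G0.subtype) g = 1 → g = 1 := by
    intro g hg
    refine Subtype.ext (hfaith _ ?_)
    have h1 : ρ (g : G) = 1 := hg
    rw [← hρ]
    simp only [Representation.character, h1, map_one]
  obtain ⟨K, i1, i2, i3, φ, hφ⟩ := exists_pgl (p := p) (by omega) P0 hP0c hu' hord (closure_pGen G) hnp
    (ρ.comp G0.subtype) hfaith' hnotp
  have hsq0 : ¬ p ^ 2 ∣ Nat.card G0 := fun h => hsq (h.trans (Subgroup.card_subgroup_dvd_card _))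
  have hgenL : Subgroup.closure {x : φ.range | x ^ p = 1} = ⊤ := by
    have h := congrArg (Subgroup.map φ.rangeRestrict) (closure_pGen (p := p) G)
    rw [MonoidHom.map_closure, Subgroup.map_top_of_surjective _ φ.rangeRestrict_surjective] at h
    refine top_le_iff.1 (h ▸ Subgroup.closure_mono ?_)
    rintro _ ⟨x, hx, rfl⟩
    show φ.rangeRestrict x ^ p = 1
    rw [← map_pow, show x ^ p = 1 from hx, map_one]
  have hpL : p ∣ Nat.card φ.range := by
    have h1 : orderOf (φ.rangeRestrict (u : G0)) = p :=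
      (hp.out.eq_one_or_self_of_dvd _ ((orderOf_map_dvd _ _).trans (dvd_of_eq hord))).resolve_left fun h =>
        hφ (congrArg Subtype.val (orderOf_eq_one_iff.1 h))
    exact h1 ▸ orderOf_dvd_natCard _
  have hsqL : ¬ p ^ 2 ∣ Nat.card φ.range := fun h => hsq0 (h.trans (Subgroup.card_range_dvd φ))
  have hncL : ¬ ∀ a b : φ.range, a * b = b * a := by
    intro hcomm
    have hexp : ∀ x : φ.range, x ^ p = 1 := by
      intro x
      have hx : x ∈ Subgroup.closure {x : φ.range | x ^ p = 1} := hgenL ▸ Subgroup.mem_top x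
      induction hx using Subgroup.closure_induction with
      | mem y hy => exact hy
      | one => exact one_pow _
      | mul a b _ _ ha hb => rw [Commute.mul_pow (hcomm a b), ha, hb, one_mul]
      | inv a _ ha => rw [inv_pow, ha, inv_one]
    have hpr : IsPGroup p φ.range := fun x => ⟨1, by rw [pow_one]; exact hexp x⟩
    have hker : ¬ p ∣ Nat.card φ.ker := fun hd => hsq0 (by
      rw [← φ.ker.card_mul_index, Subgroup.index_ker, sq]
      exact Nat.mul_dvd_mul hd hpL)
    have hps : IsPSolvable p G0 := PSolv.isPSolvable_of_extension φ.ker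
      (PSolv.isPSolvable_of_coprime (Nat.coprime_comm.1 (hp.out.coprime_iff_not_dvd.2 hker)))
      (PSolv.isPSolvable_of_isPGroup (hpr.of_equiv (QuotientGroup.quotientKerEquivRange φ).symm))
    by_cases hN : (P0 : Subgroup G0).Normal
    · refine hnotp ?_
      haveI : Subsingleton (Sylow p G0) := Sylow.unique_of_normal P0 hN |>.instSubsingleton
      have htop : (⊤ : Subgroup G0) ≤ (P0 : Subgroup G0) := by
        rw [← closure_pGen (p := p) G, Subgroup.closure_le]
        intro x hx
        rcases eq_or_ne x 1 with rfl | h1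
        · exact one_mem _
        · obtain ⟨Q, hQ, -⟩ := exists_sylow_gen hsq0 (show x ^ p = 1 from hx) h1
          show x ∈ (P0 : Subgroup G0)
          rw [Subsingleton.elim P0 Q, hQ]
          exact Subgroup.mem_zpowers x
      exact IsPGroup.of_card (n := 1) (by
        rw [pow_one, ← Subgroup.card_top (G := G0), ← top_le_iff.1 htop]; exact hP0c)
    · obtain ⟨h1, -, -⟩ := S4468.result (fun x : G0 => χ x)
        (isCharacter_comp_subtype ⟨m, ρ, hρ⟩ G0).1
        (fun g hg => Subtype.ext (hfaith _ hg)) m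
        ((isCharacter_comp_subtype ⟨m, ρ, hρ⟩ G0).2.trans hn) p hp.out hps (by omega) P0 hN
      omega
  obtain ⟨e⟩ := image_classify hp5 φ.range hgenL hpL hsqL hncL
  exact ⟨e.toMonoidHom.comp φ.rangeRestrict, e.surjective.comp φ.rangeRestrict_surjective⟩

omit hp in
/-- A character constant off the identity on a cyclic group of order `p`. -/
theorem value_eq_degree_of_constant {p : ℕ} (hp : p.Prime) {w : G} (hw : orderOf w = p) {χ : G → ℂ}
    (hχ : IsCharacter G χ) {n : ℕ} (hn : χ 1 = n) (hnp : n + 1 < p)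
    (hconst : ∀ i : ℕ, ¬ p ∣ i → χ (w ^ i) = χ w) : χ w = n := by
  letI := Fintype.ofFinite G
  set C := Subgroup.zpowers w with hC
  haveI : Fintype C := Fintype.ofFinite _
  have hCc : Nat.card C = p := by rw [hC, Nat.card_zpowers, hw]
  obtain ⟨a, ha⟩ := Char.isCharacter_classInner_nat (Char.isCharacter_restrict hχ C) (Char.trivialIrr C)
  set wC : C := ⟨w, Subgroup.mem_zpowers w⟩
  have hval : ∀ x : C, x ≠ 1 → χ x = χ w := by
    intro x hx
    obtain ⟨i, hi⟩ := Submonoid.mem_powers_iff _ _ |>.1 (mem_powers_iff_mem_zpowers.2 x.2)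
    rw [← hi]
    refine hconst i fun hd => hx (Subtype.ext ?_)
    rw [← hi, ← hw] at *
    exact orderOf_dvd_iff_pow_eq_one.1 hd
  have hsum : ∑ x : C, χ x = (n : ℂ) + ((p - 1 : ℕ) : ℂ) * χ w := by
    rw [← Finset.add_sum_erase _ _ (Finset.mem_univ (1 : C)), OneMemClass.coe_one, hn,
      Finset.sum_congr rfl fun x hx => hval x (Finset.mem_erase.1 hx).1, Finset.sum_const,
      Finset.card_erase_of_mem (Finset.mem_univ _), Finset.card_univ, ← Nat.card_eq_fintype_card, hCc,
      nsmul_eq_mul]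
  have hpa : (p : ℂ) * a = (n : ℂ) + ((p - 1 : ℕ) : ℂ) * χ w := by
    rw [← hsum, ← ha, ← hCc, ← Char.sum_mul_conj_eq_card_mul_classInner]
    refine Finset.sum_congr rfl fun x _ => ?_
    rw [show ((Char.trivialIrr C : IrrCharacter C) : C → ℂ) x = 1 from rfl, map_one, mul_one]
  have hp1 : (((p - 1 : ℕ) : ℤ) : ℂ) ≠ 0 := by
    have := hp.two_le
    exact_mod_cast show p - 1 ≠ 0 by omega
  -- the value is an integer
  obtain ⟨z, hz⟩ : ∃ z : ℤ, χ w = z := by
    have hint : IsIntegral ℤ (χ w) := Char.isCharacter_isIntegral hχ w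
    have hrat : χ w = (((p : ℚ) * a - n) / ((p - 1 : ℕ) : ℚ) : ℚ) := by
      push_cast
      rw [eq_div_iff (by exact_mod_cast hp1)]
      linear_combination -hpa
    rw [hrat] at hint ⊢
    obtain ⟨z, hz⟩ := IsIntegrallyClosed.isIntegral_iff.1
      ((isIntegral_algebraMap_iff (algebraMap ℚ ℂ).injective).1 hint)
    exact ⟨z, by rw [← hz]; simp⟩
  rw [hz] at hpa ⊢
  have hZ : (p : ℤ) * a = n + ((p - 1 : ℕ) : ℤ) * z := by exact_mod_cast hpa
  rw [Nat.cast_sub hp.one_le, Nat.cast_one] at hZ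
  have hzn : z ≤ n := by
    have h := Char.isCharacter_norm_le hχ w
    rw [hz, hn, Complex.natCast_re] at h
    have h' : |(z : ℝ)| ≤ n := by simpa using h
    exact_mod_cast (le_abs_self _).trans h'
  have hzl : -(n : ℤ) ≤ z := by
    have h := Char.isCharacter_norm_le hχ w
    rw [hz, hn, Complex.natCast_re] at h
    have h' : |(z : ℝ)| ≤ n := by simpa using h
    exact_mod_cast (neg_le_of_abs_le h')
  have key : ((p : ℤ) - 1) * ((a : ℤ) - z) = (n : ℤ) - a := by linear_combination hZ
  have ha0 : (0 : ℤ) ≤ a := Int.natCast_nonneg _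
  rcases lt_trichotomy ((a : ℤ) - z) 0 with h | h | h
  · exfalso
    have : ((p : ℤ) - 1) * ((a : ℤ) - z) ≤ ((p : ℤ) - 1) * (-1) :=
      mul_le_mul_of_nonneg_left (by omega) (by have := hp.two_le; omega)
    omega
  · rw [h, mul_zero] at key
    have : z = n := by omega
    rw [this]; simp
  · exfalso
    have : ((p : ℤ) - 1) * 1 ≤ ((p : ℤ) - 1) * ((a : ℤ) - z) :=
      mul_le_mul_of_nonneg_left (by omega) (by have := hp.two_le; omega)
    omega

/-- The main theorem. -/
theorem psl_of_faithful_half (hp5 : 5 ≤ p) (hsq : ¬ p ^ 2 ∣ Nat.card G) (P : Sylow p G)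
    (hP : Nat.card P = p) (hnn : ¬ (P : Subgroup G).Normal) {χ : G → ℂ} (hχ : IsCharacter G χ)
    (hfaith : ∀ g, χ g = χ 1 → g = 1) (hdeg : 2 * charDegree χ + 1 = p) :
    Nonempty (G ⧸ Subgroup.center G ≃* Matrix.ProjectiveSpecialLinearGroup (Fin 2) (ZMod p)) := by
  letI := Fintype.ofFinite G
  set n := charDegree χ with hn
  have hp2 : p ≠ 2 := by omega
  set G0 := pGen p G with hG0
  haveI : Fintype G0 := Fintype.ofFinite _
  haveI : G0.Normal := pGen_normal G
  obtain ⟨φ, hφ⟩ := exists_onto hp5 hsq P hP hnn hχ hfaith hn.symm (by omega)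
  have hsq0 : ¬ p ^ 2 ∣ Nat.card G0 := fun h => hsq (h.trans (Subgroup.card_subgroup_dvd_card _))
  -- lifts of the standard elements
  have hUp : pr p (upperU (1 : ZMod p)) ^ p = 1 := by
    rw [pr_upper_pow, ZMod.natCast_self, upperU_zero, map_one]
  have hLp : pr p (lowerU (1 : ZMod p)) ^ p = 1 := by
    rw [pr_lower_pow, ZMod.natCast_self, lowerU_zero, map_one]
  obtain ⟨u, hu, hup, hu1⟩ := exists_lift_p φ hφ hsq0 hUp pr_upper_ne_one
  obtain ⟨v, hv, hvp, hv1⟩ := exists_lift_p φ hφ hsq0 hLp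
    (fun h => lower_not_upper (p := p) 0 (by rw [h, pow_zero]))
  obtain ⟨P0, hP0, hP0c⟩ := exists_sylow_gen hsq0 hup hu1
  have hpord : orderOf u = p := (card_of_pow_eq_one hup hu1).1
  have hK0 : ¬ p ∣ Nat.card φ.ker := fun h => hsq0 (by
    rw [← φ.ker.card_mul_index, Subgroup.index_ker, sq, MonoidHom.range_eq_top.2 hφ, Subgroup.card_top]
    refine Nat.mul_dvd_mul h ?_
    have h1 : orderOf (pr p (upperU (1 : ZMod p))) = p :=
      (hp.out.eq_one_or_self_of_dvd _ (orderOf_dvd_of_pow_eq_one hUp)).resolve_left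
        fun h => pr_upper_ne_one (orderOf_eq_one_iff.1 h)
    exact (dvd_of_eq h1.symm).trans (orderOf_dvd_natCard _))
  -- the kernel is central
  have hkc : ∀ w : G0, w ^ p = 1 → ∀ z ∈ φ.ker, z * w = w * z := by
    intro w hw z hz
    by_cases hw1 : φ w = 1
    · rw [eq_one_of_pow_of_not_dvd hK0 hw1 hw, mul_one, one_mul]
    set H := (Subgroup.zpowers (φ w)).comap φ with hH
    haveI : Fintype H := Fintype.ofFinite _
    let f : H →* Subgroup.zpowers (φ w) := φ.subgroupComap (Subgroup.zpowers (φ w))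
    have hf : Function.Surjective f := MonoidHom.subgroupComap_surjective_of_surjective φ _ hφ
    have hkerf : ¬ p ∣ Nat.card f.ker := fun h => hK0 (h.trans (by
      rw [← Subgroup.card_map_of_injective H.subtype_injective]
      refine Subgroup.card_dvd_of_le ?_
      rintro _ ⟨x, hx, rfl⟩
      exact congrArg Subtype.val (show f x = 1 from hx)))
    have hpw : IsPGroup p (Subgroup.zpowers (φ w)) := IsPGroup.of_card (n := 1) (by
      rw [pow_one]; exact (card_of_pow_eq_one (by rw [← map_pow, hw, map_one]) hw1).2)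
    have hps : IsPSolvable p H := PSolv.isPSolvable_of_extension f.ker
      (PSolv.isPSolvable_of_coprime (Nat.coprime_comm.1 (hp.out.coprime_iff_not_dvd.2 hkerf)))
      (PSolv.isPSolvable_of_isPGroup (hpw.of_equiv
        (QuotientGroup.quotientKerEquivOfSurjective f hf).symm))
    set wH : H := ⟨w, Subgroup.mem_comap.2 (Subgroup.mem_zpowers _)⟩
    have hwH : wH ^ p = 1 := Subtype.ext hw
    have hsqH : ¬ p ^ 2 ∣ Nat.card H := fun h => hsq0 (h.trans (Subgroup.card_subgroup_dvd_card _))
    obtain ⟨Q, hQ, -⟩ := exists_sylow_gen hsqH hwH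
      (fun h => hw1 (by rw [show w = 1 from congrArg Subtype.val h, map_one]))
    have hQn : (Q : Subgroup H).Normal := by
      by_contra hQn
      have hχH : IsCharacter H (fun x : H => χ ((x : G0) : G)) :=
        Char.isCharacter_comp hχ (G0.subtype.comp H.subtype)
      have hdH : charDegree (fun x : H => χ ((x : G0) : G)) = n := by simp [hn, charDegree]
      obtain ⟨h1, -, -⟩ := S4468.result _ hχH
        (fun g hg => Subtype.ext (Subtype.ext (hfaith _ hg))) n hdH p hp.out hps (by omega) Q hQn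
      omega
    have hzH : z ∈ H := Subgroup.mem_comap.2 (by rw [show φ z = 1 from hz]; exact one_mem _)
    have h1 := hQn.conj_mem wH (hQ ▸ Subgroup.mem_zpowers wH) ⟨z, hzH⟩
    rw [hQ, ← mem_powers_iff_mem_zpowers] at h1
    obtain ⟨i, hi⟩ := h1
    have hi' : w ^ i = z * w * z⁻¹ := congrArg Subtype.val hi
    have h2 : φ w ^ i = φ w := by
      rw [← map_pow, hi', map_mul, map_mul, map_inv, show φ z = 1 from hz]; simp
    have h3 : i ≡ 1 [MOD p] := by
      have ho : orderOf (φ w) = p := (hp.out.eq_one_or_self_of_dvd _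
        (orderOf_dvd_of_pow_eq_one (by rw [← map_pow, hw, map_one]))).resolve_left
        fun h => hw1 (orderOf_eq_one_iff.1 h)
      have := pow_eq_pow_iff_modEq.1 (show φ w ^ i = φ w ^ 1 by rw [h2, pow_one])
      rwa [ho] at this
    have h4 : w ^ i = w := by
      conv_rhs => rw [← pow_one w]
      exact pow_eq_pow_iff_modEq.2 (h3.of_dvd (orderOf_dvd_of_pow_eq_one hw))
    rw [h4, eq_mul_inv_iff_mul_eq] at hi'
    exact hi'.symm
  have hkcen : ∀ z ∈ φ.ker, z ∈ Subgroup.center G0 := by
    intro z hz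
    refine Subgroup.mem_center_iff.2 fun x => ?_
    have hx : x ∈ Subgroup.closure {g : G0 | g ^ p = 1} := closure_pGen (p := p) G ▸ Subgroup.mem_top x
    induction hx using Subgroup.closure_induction with
    | mem y hy => exact (hkc y hy z hz).symm
    | one => simp
    | mul a b _ _ ha hb => exact (Commute.mul_left ha hb).eq
    | inv a _ ha => exact (Commute.inv_left ha).eq
  have hcenker : ∀ z : G0, z * u = u * z → z * v = v * z → z ∈ φ.ker := fun z h1 h2 =>
    eq_one_of_commute hp2 (by rw [← hu, ← map_mul, h1, map_mul])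
      (by rw [← hv, ← map_mul, h2, map_mul])
  -- equality of elements of order `p` is decided in the image
  have heqp : ∀ a b : G0, a ^ p = 1 → b ^ p = 1 → φ a = φ b → a = b := by
    intro a b ha hb hab
    have hz : a * b⁻¹ ∈ φ.ker := by rw [MonoidHom.mem_ker, map_mul, map_inv, hab, mul_inv_cancel]
    have hc : Commute (a * b⁻¹) b := (hkc b hb _ hz)
    have h1 : (a * b⁻¹) ^ p = 1 := by
      have h2 := hc.mul_pow p
      rw [inv_mul_cancel_right, ha, hb, mul_one] at h2
      exact h2.symm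
    exact mul_inv_eq_one.1 (eq_one_of_pow_of_not_dvd hK0 hz h1)
  have hpow : ∀ (w : G0), w ^ p = 1 → ∀ i : ℕ, (w ^ i) ^ p = 1 := fun w hw i => by
    rw [← pow_mul, mul_comm, pow_mul, hw, one_pow]
  -- the torus
  have htorus : ∀ a : ZMod p, a ≠ 0 → ∃ g : G0, g * u * g⁻¹ = u ^ (a * a).val := by
    intro a ha
    obtain ⟨D, hD⟩ := torus_upper ha
    obtain ⟨g, rfl⟩ := hφ D
    refine ⟨g, heqp _ _ (by rw [conj_pow, hup, mul_one, mul_inv_cancel]) (hpow u hup _) ?_⟩
    rw [map_mul, map_mul, map_inv, hu, hD, map_pow, hu, pr_upper_pow, ZMod.natCast_zmod_val]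
  -- the restriction is irreducible
  have hχ0 : IsCharacter G0 (fun x : G0 => χ x) := Char.isCharacter_restrict hχ G0
  have hχ01 : χ 1 = (n : ℂ) := BlkChar.isCharacter_one_eq_charDegree hχ
  have hu0 : (u : G) ≠ 1 := fun h => hu1 (Subtype.ext h)
  obtain ⟨M, hM⟩ := BlkChar.exists_isPModular p hp.out
  have hirr : IsIrrCharacter G0 (fun x : G0 => χ x) := by
    choose a ha using fun ψ : IrrCharacter G0 => Char.isCharacter_classInner_nat hχ0 ψ
    have hχeq : ∀ g : G0, χ g = ∑ ψ : IrrCharacter G0, (a ψ : ℂ) * (ψ : G0 → ℂ) g := by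
      intro g
      have h := congrFun (Char.eq_sum_classInner_smul (Char.isCharacter_isClassFunction hχ0)) g
      refine h.trans ?_
      simp [Finset.sum_apply, ha]
    have hdg : ∑ ψ : IrrCharacter G0, a ψ * charDegree (ψ : G0 → ℂ) = n := by
      refine Nat.cast_injective (R := ℂ) ?_
      push_cast
      rw [← hχ01, ← OneMemClass.coe_one G0, hχeq 1]
      exact Finset.sum_congr rfl fun ψ _ => by rw [(Block.irr_one_eq_charDegree ψ.2).1]
    obtain ⟨ψ, hψa, hψu⟩ : ∃ ψ : IrrCharacter G0, a ψ ≠ 0 ∧ (ψ : G0 → ℂ) u ≠ (ψ : G0 → ℂ) 1 := by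
      by_contra hcon
      push Not at hcon
      refine hu0 (hfaith _ ?_)
      rw [hχeq, ← OneMemClass.coe_one G0, hχeq]
      refine Finset.sum_congr rfl fun ψ _ => ?_
      rcases eq_or_ne (a ψ) 0 with h | h
      · simp [h]
      · rw [hcon ψ h]
    have hψle : a ψ * charDegree (ψ : G0 → ℂ) ≤ n := hdg ▸ Finset.single_le_sum
      (f := fun φ : IrrCharacter G0 => a φ * charDegree (φ : G0 → ℂ)) (fun _ _ => Nat.zero_le _)
      (Finset.mem_univ ψ)
    have hψn : charDegree (ψ : G0 → ℂ) = n := by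
      refine le_antisymm ((Nat.le_mul_of_pos_left _ (Nat.pos_of_ne_zero hψa)).trans hψle) ?_
      by_contra hlt
      obtain ⟨Kψ, hKn, hK⟩ := Char.isCharacter_exists_kernel (Char.isCharacter_of_irr ψ.2)
      haveI := hKn
      haveI : Fintype (G0 ⧸ Kψ) := Fintype.ofFinite _
      have huK : u ∉ Kψ := fun h => hψu ((hK u).1 h)
      obtain ⟨τ, hτ⟩ : ∃ τ : G0 ⧸ Kψ → ℂ, (IsCharacter (G0 ⧸ Kψ) τ ∧ ∀ x : G0, τ x = (ψ : G0 → ℂ) x) := by
        obtain ⟨d, σ, hσ⟩ := Char.isCharacter_of_irr ψ.2
        have hle : Kψ ≤ (σ : G0 →* _).ker := fun x hx => by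
          have h1 := (hK x).1 hx
          rw [← hσ, σ.char_one] at h1
          exact (Char.character_eq_degree_iff σ x).1 h1
        refine ⟨_, ⟨d, QuotientGroup.lift Kψ σ hle, rfl⟩, fun x => ?_⟩
        rw [← hσ]; rfl
      have hτf : ∀ g : G0 ⧸ Kψ, τ g = τ 1 → g = 1 := by
        intro g
        induction g using QuotientGroup.induction_on with | H x =>
        intro h
        rw [hτ.2, show (1 : G0 ⧸ Kψ) = ((1 : G0) : G0 ⧸ Kψ) from rfl, hτ.2] at h
        exact (QuotientGroup.eq_one_iff x).2 ((hK x).2 h)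
      have hsqQ : ¬ p ^ 2 ∣ Nat.card (G0 ⧸ Kψ) := fun h => hsq0 (h.trans Kψ.card_quotient_dvd_card)
      have hu1' : ((u : G0 ⧸ Kψ)) ≠ 1 := fun h => huK ((QuotientGroup.eq_one_iff u).1 h)
      have hup' : (u : G0 ⧸ Kψ) ^ p = 1 := by rw [← QuotientGroup.mk_pow, hup]; rfl
      obtain ⟨Q, hQ, hQc⟩ := exists_sylow_gen hsqQ hup' hu1'
      have hτd : 2 * charDegree τ + 1 < p := by
        have : charDegree τ = charDegree (ψ : G0 → ℂ) := by
          simp only [charDegree]
          rw [show (1 : G0 ⧸ Kψ) = ((1 : G0) : G0 ⧸ Kψ) from rfl, hτ.2]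
        omega
      have hQn := DefOne.sylow_normal_of_small hM _ (G0 ⧸ Kψ) rfl hsqQ Q hQc τ hτ.1 hτf hτd
      have h2 : (2 : ZMod p) ≠ 0 := fun e => by
        have h' : ((2 : ℕ) : ZMod p) = 0 := by exact_mod_cast e
        rw [ZMod.natCast_eq_zero_iff] at h'
        have := Nat.le_of_dvd two_pos h'
        omega
      obtain ⟨g, hg⟩ := htorus 2 h2
      -- the quotient is generated by conjugates of the image of `u`
      have hall : ∀ x : G0, (x : G0 ⧸ Kψ) ∈ (Q : Subgroup (G0 ⧸ Kψ)) := by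
        haveI : Subsingleton (Sylow p (G0 ⧸ Kψ)) := (Sylow.unique_of_normal Q hQn).instSubsingleton
        intro x
        have hx : x ∈ Subgroup.closure {g : G0 | g ^ p = 1} := closure_pGen (p := p) G ▸ Subgroup.mem_top x
        induction hx using Subgroup.closure_induction with
        | mem y hy =>
          rcases eq_or_ne (y : G0 ⧸ Kψ) 1 with h1 | h1
          · rw [h1]; exact one_mem _
          · obtain ⟨R, hR, -⟩ := exists_sylow_gen hsqQ
              (show (y : G0 ⧸ Kψ) ^ p = 1 by rw [← QuotientGroup.mk_pow, show y ^ p = 1 from hy]; rfl) h1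
            rw [Subsingleton.elim Q R, hR]
            exact Subgroup.mem_zpowers _
        | one => exact one_mem _
        | mul a b _ _ ha hb => rw [QuotientGroup.mk_mul]; exact mul_mem ha hb
        | inv a _ ha => rw [QuotientGroup.mk_inv]; exact inv_mem ha
      have hcom : Commute (g : G0 ⧸ Kψ) u := by
        obtain ⟨s, hs⟩ := Subgroup.mem_zpowers_iff.1 (hQ ▸ hall g)
        rw [← hs]; exact (Commute.refl _).zpow_left s
      have h5 : (u : G0 ⧸ Kψ) ^ ((2 : ZMod p) * 2).val = u := by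
        rw [← QuotientGroup.mk_pow, ← hg, QuotientGroup.mk_mul, QuotientGroup.mk_mul, QuotientGroup.mk_inv,
          hcom.eq, mul_inv_cancel_right]
      have ho : orderOf (u : G0 ⧸ Kψ) = p := (card_of_pow_eq_one hup' hu1').1
      have h6 : ((2 : ZMod p) * 2).val ≡ 1 [MOD p] := by
        have := pow_eq_pow_iff_modEq.1 (show (u : G0 ⧸ Kψ) ^ ((2 : ZMod p) * 2).val =
          (u : G0 ⧸ Kψ) ^ 1 by rw [h5, pow_one])
        rwa [ho] at this
      rw [← ZMod.natCast_eq_natCast_iff, ZMod.natCast_zmod_val, Nat.cast_one] at h6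
      have h7 : ((3 : ℕ) : ZMod p) = 0 := by push_cast; linear_combination h6
      rw [ZMod.natCast_eq_zero_iff] at h7
      have := Nat.le_of_dvd (by norm_num) h7
      omega
    rw [hψn] at hψle
    have hn0 : 0 < n := by omega
    have ha1 : a ψ = 1 := le_antisymm
      (Nat.le_of_mul_le_mul_right (by simpa using hψle : a ψ * n ≤ 1 * n) hn0) (Nat.pos_of_ne_zero hψa)
    have hrest : ∀ φ' : IrrCharacter G0, φ' ≠ ψ → a φ' = 0 := by
      intro φ' hne
      have h := Finset.add_sum_erase Finset.univ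
        (fun φ : IrrCharacter G0 => a φ * charDegree (φ : G0 → ℂ)) (Finset.mem_univ ψ)
      rw [hdg, hψn, ha1, one_mul] at h
      have h0 : ∑ φ ∈ Finset.univ.erase ψ, a φ * charDegree (φ : G0 → ℂ) = 0 := by omega
      rcases mul_eq_zero.1 ((Finset.sum_eq_zero_iff.1 h0) φ'
        (Finset.mem_erase.2 ⟨hne, Finset.mem_univ _⟩)) with h' | h'
      · exact h'
      · exact absurd h' (Block.irr_one_eq_charDegree φ'.2).2.1.ne'
    have : (fun x : G0 => χ x) = (ψ : G0 → ℂ) := funext fun x => by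
      rw [hχeq, Finset.sum_eq_single ψ (fun φ' _ h => by rw [hrest φ' h]; simp)
        (fun h => absurd (Finset.mem_univ _) h), ha1, Nat.cast_one, one_mul]
    rw [this]; exact ψ.2
  -- what centralises `G0` is central
  have hcentral : ∀ c : G, (∀ x : G0, c * x = x * c) → c ∈ Subgroup.center G := by
    intro c hc
    obtain ⟨d, ρ, hρ⟩ := hχ
    obtain ⟨d', σ, hσi, hσ⟩ := hirr
    haveI := hσi
    let ρ0 : Representation ℂ G0 (Fin d → ℂ) := ρ.comp G0.subtype
    obtain ⟨e⟩ := CharExt.nonempty_equiv_of_character_eq σ ρ0 (by rw [hσ, ← hρ]; rfl)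
    haveI : ρ0.IsIrreducible := Char.isIrreducible_of_equiv e
    obtain ⟨s, hs⟩ := CharExt.exists_scalar_of_commute ρ0 (ρ c) fun x => by
        show ρ c * ρ (x : G) = ρ (x : G) * ρ c
        rw [← map_mul, ← map_mul, hc x]
    refine Subgroup.mem_center_iff.2 fun x => ?_
    have h1 : ρ (x * c * x⁻¹ * c⁻¹) = 1 := by
      rw [map_mul, map_mul, map_mul, hs, mul_smul_comm, mul_one, smul_mul_assoc, smul_mul_assoc,
        ← map_mul, mul_inv_cancel, map_one, one_mul]
      calc s • ρ c⁻¹ = (s • (1 : (Fin d → ℂ) →ₗ[ℂ] (Fin d → ℂ))) * ρ c⁻¹ := by rw [smul_mul_assoc, one_mul]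
        _ = 1 := by rw [← hs, ← map_mul, mul_inv_cancel, map_one]
    have h2 : x * c * x⁻¹ * c⁻¹ = 1 := hfaith _ (by
      rw [← hρ]
      simp only [Representation.character, h1, map_one])
    rw [mul_inv_eq_one, mul_inv_eq_iff_eq_mul] at h2
    exact h2
  -- conjugation on `G0`
  set Z := Subgroup.center G with hZ
  let cj : G → G0 ≃* G0 := fun g => MulAut.conjNormal g
  have hcj : ∀ (g : G) (x : G0), ((cj g x : G0) : G) = g * x * g⁻¹ := fun g x => MulAut.conjNormal_apply g x
  have hinC : ∀ c : G, cj c u = u → c ∈ G0 ⊔ Z := by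
    intro c hc
    set w := cj c v with hw
    have hwp : w ^ p = 1 := by rw [hw, ← map_pow, hvp, map_one]
    have hnu : ∀ i : ℕ, φ w ≠ pr p (upperU 1) ^ i := by
      intro i h
      have h1 : w = u ^ i := heqp _ _ hwp (hpow u hup i) (by rw [h, map_pow, hu])
      have h2 : v = u ^ i := (cj c).injective (by rw [map_pow, hc]; exact h1)
      exact lower_not_upper (p := p) i (by rw [← hv, h2, map_pow, hu])
    obtain ⟨x, h, hh0, hx⟩ := exists_lower hp2 (by rw [← map_pow, hwp, map_one]) hnu
    set c' := ((u ^ x : G0) : G) * c with hc'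
    have hcu : cj c' u = u := by
      refine Subtype.ext ?_
      have h0 : c * (u : G) * c⁻¹ = u := by rw [← hcj]; exact congrArg Subtype.val hc
      rw [hcj, hc', _root_.mul_inv_rev, SubgroupClass.coe_pow]
      calc (u : G) ^ x * c * u * (c⁻¹ * ((u : G) ^ x)⁻¹) = (u : G) ^ x * (c * u * c⁻¹) * ((u : G) ^ x)⁻¹ := by group
        _ = _ := by rw [h0]; group
    have hcv : cj c' v = v ^ h := by
      refine heqp _ _ (by rw [← map_pow, hvp, map_one]) (hpow v hvp h) ?_
      have e : cj c' v = u ^ x * w * (u ^ x)⁻¹ := Subtype.ext (by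
        rw [hcj, hc', hw]; push_cast; rw [hcj]; group)
      rw [e, map_mul, map_mul, map_inv, map_pow, hu, hx, map_pow, hv]
    -- the relation
    have hr : φ ((u * v⁻¹ * u) ^ 2) = 1 := by
      have hvi : (lowerU (1 : ZMod p))⁻¹ = lowerU (-1) := by
        rw [inv_eq_iff_mul_eq_one, ← lowerU_add, add_neg_cancel, lowerU_zero]
      rw [map_pow, map_mul, map_mul, map_inv, hu, hv, ← map_inv, ← map_mul, ← map_mul, hvi]
      exact relation_one
    have hr' : cj c' ((u * v⁻¹ * u) ^ 2) ∈ φ.ker := by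
      have hz := Subgroup.mem_center_iff.1 (hkcen _ hr)
      refine hcenker _ ?_ ?_
      all_goals revert hz; generalize (u * v⁻¹ * u) ^ 2 = zz; intro hz
      · obtain ⟨y, hy⟩ := (cj c').surjective u
        rw [← hy, ← map_mul, ← map_mul, hz y]
      · obtain ⟨y, hy⟩ := (cj c').surjective v
        rw [← hy, ← map_mul, ← map_mul, hz y]
    have hh1 : (h : ZMod p) = 1 := by
      refine exponent_eq_one hp2 hh0 ?_
      have hvi : (lowerU (h : ZMod p))⁻¹ = lowerU (-(h : ZMod p)) := by
        rw [inv_eq_iff_mul_eq_one, ← lowerU_add, add_neg_cancel, lowerU_zero]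
      rw [← hvi, map_mul, map_mul, map_inv, ← pr_lower_pow, ← hu, ← hv, ← map_pow, ← map_inv, ← map_mul,
        ← map_mul, ← map_pow, ← hcv, ← map_inv (cj c')]
      rw [← hcu]
      simp only [hcu]
      conv_lhs => rw [← hcu]
      rw [← map_mul, ← map_mul, ← map_pow]
      exact hr'
    have hcv' : cj c' v = v := by
      rw [hcv]
      conv_rhs => rw [← pow_one v]
      refine pow_eq_pow_iff_modEq.2 ((Nat.ModEq.of_dvd (orderOf_dvd_of_pow_eq_one hvp)) ?_)
      rw [← ZMod.natCast_eq_natCast_iff, hh1, Nat.cast_one]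
    have hfix : ∀ y : G0, y ^ p = 1 → cj c' y = y := by
      intro y hy
      obtain ⟨s, hs, hsφ⟩ : ∃ s, cj c' s = s ∧ φ s = φ y := by
        generalize φ y = t
        have htop : t ∈ Subgroup.closure ({pr p (upperU 1), pr p (lowerU 1)} :
            Set (Matrix.ProjectiveSpecialLinearGroup (Fin 2) (ZMod p))) :=
          (closure_pr (p := p)) ▸ Subgroup.mem_top t
        induction htop using Subgroup.closure_induction with
        | mem z hz => rcases hz with rfl | rfl; exacts [⟨u, hcu, hu⟩, ⟨v, hcv', hv⟩]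
        | one => exact ⟨1, map_one _, map_one _⟩
        | mul a b _ _ ha hb =>
          obtain ⟨s, h1, h2⟩ := ha
          obtain ⟨t, h3, h4⟩ := hb
          exact ⟨s * t, by rw [map_mul, h1, h3], by rw [map_mul, h2, h4]⟩
        | inv a _ ha =>
          obtain ⟨s, h1, h2⟩ := ha
          exact ⟨s⁻¹, by rw [map_inv, h1], by rw [map_inv, h2]⟩
      have hz : s⁻¹ * y ∈ φ.ker := by rw [MonoidHom.mem_ker, map_mul, map_inv, hsφ, inv_mul_cancel]
      have e : cj c' y = s * cj c' (s⁻¹ * y) := by rw [map_mul, map_inv, hs]; group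
      have hz' : cj c' (s⁻¹ * y) ∈ φ.ker := by
        have hc2 := Subgroup.mem_center_iff.1 (hkcen _ hz)
        refine hcenker _ ?_ ?_
        · obtain ⟨t, ht⟩ := (cj c').surjective u
          rw [← ht, ← map_mul, ← map_mul, hc2]
        · obtain ⟨t, ht⟩ := (cj c').surjective v
          rw [← ht, ← map_mul, ← map_mul, hc2]
      refine heqp _ _ (by rw [← map_pow, hy, map_one]) hy ?_
      rw [e, map_mul, show φ (cj c' (s⁻¹ * y)) = 1 from hz', mul_one, hsφ]
    have hall : ∀ y : G0, cj c' y = y := by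
      intro y
      have hy : y ∈ Subgroup.closure {g : G0 | g ^ p = 1} := closure_pGen (p := p) G ▸ Subgroup.mem_top y
      induction hy using Subgroup.closure_induction with
      | mem z hz => exact hfix z hz
      | one => exact map_one _
      | mul a b _ _ ha hb => rw [map_mul, ha, hb]
      | inv a _ ha => rw [map_inv, ha]
    have hc'Z : c' ∈ Z := hcentral c' fun y => by
      have := congrArg Subtype.val (hall y)
      rw [hcj] at this
      exact mul_inv_eq_iff_eq_mul.1 this
    rw [show c = ((u ^ x : G0) : G)⁻¹ * c' by rw [hc']; group]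
    exact mul_mem (Subgroup.mem_sup_left (G0.inv_mem (u ^ x : G0).2)) (Subgroup.mem_sup_right hc'Z)
  -- everything is inner modulo the centre
  have htop : G0 ⊔ Z = ⊤ := by
    have hfr : Subgroup.normalizer ((((P0 : Subgroup G0)).map G0.subtype : Subgroup G) : Set G) ⊔ G0 = ⊤ :=
      Sylow.normalizer_sup_eq_top P0
    refine top_le_iff.1 (hfr ▸ sup_le (fun y hy => ?_) le_sup_left)
    have h1 : y * (u : G) * y⁻¹ ∈ ((P0 : Subgroup G0)).map G0.subtype :=
      (Subgroup.mem_normalizer_iff.1 hy (u : G)).1 ⟨u, hP0 ▸ Subgroup.mem_zpowers u, rfl⟩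
    obtain ⟨w, hw, hwe⟩ := h1
    have hw' : w ∈ Subgroup.zpowers u := hP0 ▸ hw
    rw [← mem_powers_iff_mem_zpowers] at hw'
    obtain ⟨h, (rfl : u ^ h = w)⟩ := hw'
    have hy' : cj y u = u ^ h := Subtype.ext (by rw [hcj]; exact hwe.symm)
    have hh0 : (h : ZMod p) ≠ 0 := fun h0 => hu1 ((cj y).injective (by
      rw [map_one, hy']
      rw [ZMod.natCast_eq_zero_iff] at h0
      exact orderOf_dvd_iff_pow_eq_one.1 (hpord.symm ▸ h0)))
    by_cases hsqr : IsSquare (h : ZMod p)
    · obtain ⟨a, ha⟩ := hsqr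
      have ha0 : a ≠ 0 := fun h0 => hh0 (by rw [ha, h0, mul_zero])
      obtain ⟨g, hg⟩ := htorus a ha0
      have hge : g * u * g⁻¹ = u ^ h := by
        rw [hg]
        refine pow_eq_pow_iff_modEq.2 ?_
        rw [hpord, ← ZMod.natCast_eq_natCast_iff, ZMod.natCast_zmod_val, ha]
      have hc : cj ((g : G)⁻¹ * y) u = u := Subtype.ext (by
        have h2 := congrArg Subtype.val (hge.trans hy'.symm)
        rw [hcj] at h2
        push_cast at h2
        rw [hcj]
        calc (g : G)⁻¹ * y * (u : G) * ((g : G)⁻¹ * y)⁻¹ = (g : G)⁻¹ * (y * u * y⁻¹) * g := by group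
          _ = (g : G)⁻¹ * ((g : G) * u * (g : G)⁻¹) * g := by rw [h2]
          _ = u := by group)
      rw [show y = (g : G) * ((g : G)⁻¹ * y) by group]
      exact mul_mem (Subgroup.mem_sup_left g.2) (hinC _ hc)
    · exfalso
      -- every power of `u` is conjugate to `u`
      have hconst : ∀ i : ℕ, ¬ p ∣ i → χ ((u : G) ^ i) = χ (u : G) := by
        intro i hi
        have hi0 : (i : ZMod p) ≠ 0 := fun e => hi ((ZMod.natCast_eq_zero_iff _ _).1 e)
        have hsquare : ∀ j : ℕ, (j : ZMod p) ≠ 0 → IsSquare (j : ZMod p) → ∀ r : ℕ,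
            χ ((u : G) ^ (r * j)) = χ ((u : G) ^ r) := by
          intro j hj0 ⟨a, ha⟩ r
          obtain ⟨g, hg⟩ := htorus a (fun h0 => hj0 (by rw [ha, h0, mul_zero]))
          have e : (u : G) ^ (r * j) = (g : G) * (u : G) ^ r * (g : G)⁻¹ := by
            rw [← conj_pow]
            have h3 : ((g : G) * (u : G) * (g : G)⁻¹) = (u : G) ^ (a * a).val := by
              have := congrArg Subtype.val hg; simpa using this
            rw [h3, ← pow_mul]
            refine pow_eq_pow_iff_modEq.2 ?_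
            rw [Subgroup.orderOf_coe, hpord, ← ZMod.natCast_eq_natCast_iff]
            push_cast
            rw [ha, ZMod.natCast_zmod_val]; ring
          rw [e]; exact Char.isCharacter_isClassFunction hχ _ _
        by_cases hisq : IsSquare (i : ZMod p)
        · simpa using hsquare i hi0 hisq 1
        · set j := ((i : ZMod p) * (h : ZMod p)⁻¹).val with hj
          have hjc : (j : ZMod p) = (i : ZMod p) * (h : ZMod p)⁻¹ := ZMod.natCast_zmod_val _
          have hj0 : (j : ZMod p) ≠ 0 := by rw [hjc]; exact mul_ne_zero hi0 (inv_ne_zero hh0)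
          have hjs : IsSquare (j : ZMod p) := by
            rw [← quadraticChar_one_iff_isSquare hj0, hjc, map_mul,
              quadraticChar_neg_one_iff_not_isSquare.2 hisq]
            have : ¬ IsSquare ((h : ZMod p)⁻¹) := fun ⟨r, hr⟩ => hsqr ⟨r⁻¹, by rw [← mul_inv, ← hr, inv_inv]⟩
            rw [quadraticChar_neg_one_iff_not_isSquare.2 this]; norm_num
          have e1 : (u : G) ^ i = (u : G) ^ (h * j) := by
            refine pow_eq_pow_iff_modEq.2 ?_
            rw [Subgroup.orderOf_coe, hpord, ← ZMod.natCast_eq_natCast_iff, Nat.cast_mul, hjc]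
            field_simp
          rw [e1, hsquare j hj0 hjs h]
          have e2 : (u : G) ^ h = y * (u : G) * y⁻¹ := by
            have := congrArg Subtype.val hy'; rw [hcj] at this; rw [this]; push_cast; rfl
          rw [e2]; exact Char.isCharacter_isClassFunction hχ _ _
      have h9 := value_eq_degree_of_constant hp.out (by rw [Subgroup.orderOf_coe]; exact hpord) hχ hχ01
        (by omega) hconst
      exact hu0 (hfaith _ (by rw [h9, hχ01]))
  -- the isomorphism
  let π : G0 →* G ⧸ Z := (QuotientGroup.mk' Z).comp G0.subtype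
  have hπ : Function.Surjective π := by
    intro x
    obtain ⟨g, rfl⟩ := QuotientGroup.mk_surjective x
    obtain ⟨a, ha, b, hb, rfl⟩ := Subgroup.mem_sup_of_normal_right.1 (htop ▸ Subgroup.mem_top g)
    refine ⟨⟨a, ha⟩, ?_⟩
    show ((a : G) : G ⧸ Z) = ((a * b : G) : G ⧸ Z)
    rw [QuotientGroup.mk_mul, (QuotientGroup.eq_one_iff b).2 hb, mul_one]
  have hker : π.ker = φ.ker := by
    ext z
    constructor
    · intro hz
      have h1 : (z : G) ∈ Z := (QuotientGroup.eq_one_iff _).1 hz
      exact hcenker z (Subtype.ext (Subgroup.mem_center_iff.1 h1 _).symm)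
        (Subtype.ext (Subgroup.mem_center_iff.1 h1 _).symm)
    · intro hz
      refine (QuotientGroup.eq_one_iff _).2 (hcentral _ fun x => ?_)
      exact congrArg Subtype.val (Subgroup.mem_center_iff.1 (hkcen z hz) x).symm
  exact ⟨(QuotientGroup.quotientKerEquivOfSurjective π hπ).symm.trans
    ((QuotientGroup.quotientMulEquivOfEq hker).trans (QuotientGroup.quotientKerEquivOfSurjective φ hφ))⟩

end Cfsg.Agent.SL2Mod
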