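import Cfsg.Agent.SL2Mod.Chain

/-!
# The three-dimensional summand of the adjoint module
-/

set_option linter.style.haveILetI false
set_option linter.unusedSectionVars false
set_option autoImplicit false

noncomputable section

namespace Cfsg.Agent.SL2Mod

open scoped Classical
open Matrix

universe u v w

variable {k : Type u} [Field k] {G : Type v} [Group G] [Fintype G] {V : Type w} [AddCommGroup V]
  [Module k V] [FiniteDimensional k V] {p : ℕ} [Fact p.Prime] [CharP k p]

/-- The trace form on endomorphisms. -/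
def trForm (k : Type u) [Field k] (V : Type w) [AddCommGroup V] [Module k V] :
    Module.End k V →ₗ[k] Module.End k V →ₗ[k] k :=
  (LinearMap.mul k (Module.End k V)).compr₂ (LinearMap.trace k V)

omit [FiniteDimensional k V] in
theorem trForm_apply (a b : Module.End k V) : trForm k V a b = LinearMap.trace k V (a * b) := rfl

theorem trForm_nondeg {a : Module.End k V} (h : ∀ b, trForm k V a b = 0) : a = 0 := by
  refine LinearMap.ext fun v => ?_
  rw [LinearMap.zero_apply]
  refine (Module.forall_dual_apply_eq_zero_iff k (a v)).1 fun φ => ?_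
  have := h (φ.smulRight v)
  rw [trForm_apply, Module.End.mul_eq_comp,
    show a.comp (φ.smulRight v) = φ.smulRight (a v) from LinearMap.ext fun x => by simp,
    LinearMap.trace_smulRight] at this
  exact this

/-- A three-dimensional orthogonal representation in which `u` acts non-trivially. -/
theorem exists_adjoint (ρ : Representation k G V) (hirr : ∀ U : Submodule k V,
      (∀ g, ∀ v ∈ U, ρ g v ∈ U) → U = ⊥ ∨ U = ⊤)
    (P : Sylow p G) (hP : Nat.card P = p) {u : G} (hu : (P : Subgroup G) = Subgroup.zpowers u)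
    (hord : orderOf u = p) (hρu : ρ u ≠ 1) (hdim : 2 * Module.finrank k V < p) :
    ∃ (f : G →* Matrix (Fin 3) (Fin 3) k) (J : Matrix (Fin 3) (Fin 3) k),
      J.transpose = J ∧ J.det ≠ 0 ∧ (∀ g, (f g).transpose * J * f g = J) ∧ f u ≠ 1 := by
  obtain ⟨m, ι, s, hm2, hmp, hs, hιs, htr, hιu, hmodel⟩ := exists_model ρ hirr P hP hu hord hρu hdim
  set τ : Representation k G (Module.End k V) := Representation.linHom ρ ρ with hτ
  have hτa : ∀ g a, τ g a = ρ g * a * ρ g⁻¹ := fun g a => rfl
  have hinv : ∀ g : G, ρ g * ρ g⁻¹ = 1 := fun g => by rw [← map_mul, mul_inv_cancel, map_one]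
  set B := trForm k V with hB
  have hBG : ∀ g a b, B (τ g a) (τ g b) = B a b := by
    intro g a b
    rw [hB, trForm_apply, trForm_apply, hτa, hτa, LinearMap.trace_mul_comm]
    rw [show ρ g * b * ρ g⁻¹ * (ρ g * a * ρ g⁻¹) = ρ g * (b * (ρ g⁻¹ * ρ g) * a) * ρ g⁻¹ by
      simp only [mul_assoc], LinearMap.trace_mul_comm, ← map_mul, inv_mul_cancel, map_one, mul_one,
      ← mul_assoc, ← map_mul, inv_mul_cancel, map_one, one_mul, LinearMap.trace_mul_comm]
  have hBs : ∀ a b, B a b = B b a := fun a b => LinearMap.trace_mul_comm _ _ _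
  have hBι : ∀ a b, B (ι a) (ι b) = (s : k) * trace (a * b) := fun a b => by
    rw [hB, trForm_apply, ← map_mul, htr]
  set E := ι (Em k m) with hE
  set H := ι (Hm k m) with hH
  set F := ι (Fm k m) with hF
  have hnat : ∀ a : ℕ, 0 < a → a < p → ((a : ℕ) : k) ≠ 0 := fun a h1 h2 h => by
    rw [CharP.cast_eq_zero_iff k p] at h
    have := Nat.le_of_dvd h1 h
    omega
  have hprod : (m : k) * ((m : k) - 1) * ((m : k) + 1) ≠ 0 := by
    refine mul_ne_zero (mul_ne_zero (hnat m (by omega) (by omega)) ?_) ?_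
    · have := hnat (m - 1) (by omega) (by omega)
      rwa [Nat.cast_sub (by omega : 1 ≤ m), Nat.cast_one] at this
    · have := hnat (m + 1) (by omega) (by omega)
      rwa [Nat.cast_add, Nat.cast_one] at this
  have h2 : (2 : k) ≠ 0 := by exact_mod_cast hnat 2 (by omega) (by omega)
  have t1 : B E F ≠ 0 := by
    rw [hE, hF, hBι]
    refine mul_ne_zero hs fun h => hprod ?_
    have := six_trace_EF (k := k) (m := m)
    rw [h, mul_zero] at this
    linear_combination this
  have t2 : B H H ≠ 0 := by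
    rw [hH, hBι]
    refine mul_ne_zero hs fun h => hprod ?_
    have := three_trace_HH (k := k) (m := m)
    rw [h, mul_zero] at this
    exact this.symm
  have bEE : B E E = 0 := by rw [hE, hBι, trace_EE, mul_zero]
  have bFF : B F F = 0 := by rw [hF, hBι, trace_FF, mul_zero]
  have bEH : B E H = 0 := by rw [hE, hH, hBι, trace_EH, mul_zero]
  have bFH : B F H = 0 := by rw [hF, hH, hBι, trace_FH, mul_zero]
  -- the orthogonal projection
  set e : Module.End k (Module.End k V) := (B E F)⁻¹ • (B.flip F).smulRight E +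
    (B H H)⁻¹ • (B.flip H).smulRight H + (B E F)⁻¹ • (B.flip E).smulRight F with he
  have hea : ∀ a, e a = ((B E F)⁻¹ * B a F) • E + ((B H H)⁻¹ * B a H) • H +
      ((B E F)⁻¹ * B a E) • F := fun a => by simp [he, smul_smul]
  set U : Submodule k (Module.End k V) := Submodule.span k {E, H, F} with hU
  have hEU : E ∈ U := Submodule.subset_span (Or.inl rfl)
  have hHU : H ∈ U := Submodule.subset_span (Or.inr (Or.inl rfl))
  have hFU : F ∈ U := Submodule.subset_span (Or.inr (Or.inr rfl))
  have heU : ∀ a, e a ∈ U := fun a => by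
    rw [hea]
    exact add_mem (add_mem (U.smul_mem _ hEU) (U.smul_mem _ hHU)) (U.smul_mem _ hFU)
  have hgen : ∀ a, B (e a) E = B a E ∧ B (e a) H = B a H ∧ B (e a) F = B a F := by
    intro a
    refine ⟨?_, ?_, ?_⟩ <;> rw [hea] <;>
      simp [bEE, bFF, bEH, bFH, hBs F E, hBs H E, hBs H F] <;> field_simp
  have hdet : ∀ w ∈ U, B w E = 0 → B w H = 0 → B w F = 0 → w = 0 := by
    intro w hw hwE hwH hwF
    rw [hU, Submodule.mem_span_triple] at hw
    obtain ⟨a, b, c, rfl⟩ := hw
    simp [bEE, bEH, bFH, bFF, hBs H E, hBs F E, hBs H F, t1, t2] at hwE hwH hwF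
    subst hwE hwH hwF
    simp
  have hsep : ∀ w ∈ U, ∀ w' ∈ U, (∀ x ∈ U, B w x = B w' x) → w = w' := by
    intro w hw w' hw' h
    refine sub_eq_zero.1 (hdet _ (sub_mem hw hw') ?_ ?_ ?_) <;>
      rw [map_sub, LinearMap.sub_apply, sub_eq_zero]
    exacts [h E hEU, h H hHU, h F hFU]
  have heB : ∀ a, ∀ x ∈ U, B (e a) x = B a x := by
    intro a x hx
    rw [hU, Submodule.mem_span_triple] at hx
    obtain ⟨c₁, c₂, c₃, rfl⟩ := hx
    simp only [map_add, map_smul, (hgen a).1, (hgen a).2.1, (hgen a).2.2]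
  have heid : ∀ a ∈ U, e a = a := fun a ha => hsep _ (heU a) _ ha (heB a)
  have hee : e * e = e := LinearMap.ext fun a => heid _ (heU a)
  have hesa : ∀ a b, B (e a) b = B a (e b) := fun a b => by
    rw [hBs (e a) b, ← heB b _ (heU a), hBs, heB a _ (heU b)]
  -- invariance of `U`
  have hpres : ∀ g, τ g E ∈ U → τ g H ∈ U → τ g F ∈ U → ∀ a ∈ U, τ g a ∈ U := by
    intro g h1 h2 h3 a ha
    rw [hU, Submodule.mem_span_triple] at ha
    obtain ⟨c₁, c₂, c₃, rfl⟩ := ha
    simp only [map_add, map_smul]
    exact add_mem (add_mem (U.smul_mem _ h1) (U.smul_mem _ h2)) (U.smul_mem _ h3)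
  have hconj : ∀ (g : G) a a', ρ g * a = a' * ρ g → τ g a = a' := fun g a a' h => by
    rw [hτa, h, mul_assoc, hinv, mul_one]
  have huE : τ u E = E := hconj _ _ _ (by rw [hιu, hE, ← map_mul, Tm_mul_Em, map_mul])
  have huH : τ u H = H + 2 • E := hconj _ _ _ (by
    rw [hιu, hH, hE, ← map_mul, Tm_mul_Hm, map_mul, map_add, map_nsmul])
  have huF : τ u F = F + H + E := hconj _ _ _ (by
    rw [hιu, hF, hH, hE, ← map_mul, Tm_mul_Fm, map_mul, map_add, map_add])
  have huU : ∀ a ∈ U, τ u a ∈ U := hpres u (by rw [huE]; exact hEU)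
    (by rw [huH]; exact add_mem hHU (nsmul_mem hEU 2))
    (by rw [huF]; exact add_mem (add_mem hFU hHU) hEU)
  have hNU : ∀ y ∈ Subgroup.normalizer ((P : Subgroup G) : Set G), ∀ a ∈ U, τ y a ∈ U := by
    intro y hy a ha
    obtain ⟨x, h, c, rfl, hx, hc, hcE, hcH, hcF⟩ := hmodel y hy
    rw [← mem_powers_iff_mem_zpowers] at hx
    obtain ⟨i, rfl⟩ := hx
    have h1 : τ h a ∈ U := by
      refine hpres h ?_ ?_ ?_ a ha
      · rw [hconj h E (c • E) (by rw [hcE, smul_mul_assoc])]; exact U.smul_mem _ hEU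
      · rw [hconj h H H hcH]; exact hHU
      · rw [hconj h F (c⁻¹ • F) (by rw [smul_mul_assoc, hcF, smul_smul, inv_mul_cancel₀ hc, one_smul])]
        exact U.smul_mem _ hFU
    show τ (u ^ i * h) a ∈ U
    rw [map_mul, Module.End.mul_apply]
    clear ha hy
    induction i with
    | zero => simpa using h1
    | succ i ih => rw [pow_succ', map_mul, Module.End.mul_apply]; exact huU _ ih
  have hec : ∀ y ∈ Subgroup.normalizer ((P : Subgroup G) : Set G), Commute (τ y) e := by
    intro y hy
    refine LinearMap.ext fun a => ?_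
    show τ y (e a) = e (τ y a)
    refine hsep _ (hNU y hy _ (heU a)) _ (heU _) fun x hx => ?_
    have hx' : τ y⁻¹ x ∈ U := hNU _ (inv_mem hy) x hx
    have hxx : τ y (τ y⁻¹ x) = x := by
      rw [← Module.End.mul_apply, ← map_mul, mul_inv_cancel, map_one, Module.End.one_apply]
    conv_rhs => rw [heB _ _ hx, ← hxx, hBG, ← heB _ _ hx']
    rw [← hBG y (e a), hxx]
  -- nilpotency on endomorphisms
  set X : Module.End k V := ρ u - 1 with hX
  have hXm : X ^ m = 0 := by
    rw [hX, hιu, ← map_one ι, ← map_sub, ← map_pow]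
    show ι (Dl k m ^ m) = 0
    rw [Dl_pow_eq_zero, map_zero]
  have hTX : (τ u - 1) ^ (p - 1) = 0 := by
    set L := LinearMap.mulLeft k X with hL
    set R := LinearMap.mulRight k (ρ u⁻¹) with hR
    have e1 : τ u - 1 = L * R + (R - 1) := LinearMap.ext fun a => by
      simp [hτa, hL, hR, hX, sub_mul, mul_assoc]
    have hLR : Commute L R := LinearMap.ext fun a => by simp [hL, hR, mul_assoc]
    have hn1 : (L * R) ^ m = 0 := by
      rw [hLR.mul_pow, hL, LinearMap.pow_mulLeft, hXm, LinearMap.mulLeft_zero_eq_zero, zero_mul]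
    have hn2 : (R - 1) ^ m = 0 := by
      have : R - 1 = LinearMap.mulRight k (ρ u⁻¹ - 1) := LinearMap.ext fun a => by simp [hR, mul_sub]
      rw [this, LinearMap.pow_mulRight]
      have e2 : ρ u⁻¹ - 1 = -ρ u⁻¹ * X := by
        rw [hX, mul_sub, neg_mul, mul_one, ← map_mul, inv_mul_cancel, map_one]; abel
      have hcm : Commute (-ρ u⁻¹) X := by
        refine (Commute.sub_right ?_ (Commute.one_right _)).neg_left
        show ρ u⁻¹ * ρ u = ρ u * ρ u⁻¹
        rw [← map_mul, ← map_mul, inv_mul_cancel, mul_inv_cancel]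
      rw [e2, hcm.mul_pow, hXm, mul_zero, LinearMap.mulRight_zero_eq_zero]
    rw [e1]
    exact Commute.add_pow_eq_zero_of_add_le_succ_of_pow_eq_zero
      ((hLR.mul_left (Commute.refl R)).sub_right (Commute.one_right _)) hn1 hn2 (by omega)
  obtain ⟨π, hπc, hππ, hπe, hrank, hsa⟩ := exists_global τ P hP hu hord hTX hec hee
  have hπsa := hsa B hBG hesa
  -- dimension three
  have hr3 : Module.finrank k (LinearMap.range π) = 3 := by
    rw [hrank]
    have hru : LinearMap.range e = U := le_antisymm (by rintro _ ⟨a, rfl⟩; exact heU a)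
      fun a ha => ⟨a, heid a ha⟩
    have hli : LinearIndependent k ![E, H, F] := by
      rw [Fintype.linearIndependent_iff]
      intro g hg
      simp only [Fin.sum_univ_three, cons_val_zero, cons_val_one, cons_val] at hg
      have h1 := congrArg (fun x => B x E) hg
      have h2' := congrArg (fun x => B x H) hg
      have h3 := congrArg (fun x => B x F) hg
      simp [bEE, bEH, bFH, bFF, hBs H E, hBs F E, hBs H F, t1, t2] at h1 h2' h3
      intro i
      fin_cases i <;> assumption
    rw [hru, hU, show ({E, H, F} : Set (Module.End k V)) = Set.range ![E, H, F] by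
      ext x; simp [eq_comm]; tauto,
      finrank_span_eq_card hli, Fintype.card_fin]
  let bW : Module.Basis (Fin 3) k (LinearMap.range π) :=
    (Module.finBasis k (LinearMap.range π)).reindex (finCongr hr3)
  have hW : ∀ g, ∀ w ∈ LinearMap.range π, τ g w ∈ LinearMap.range π := by
    rintro g _ ⟨a, rfl⟩
    exact ⟨τ g a, by rw [← Module.End.mul_apply, ← (hπc g).eq, Module.End.mul_apply]⟩
  let r : G →* Module.End k (LinearMap.range π) :=
    { toFun := fun g => (τ g).restrict (hW g)
      map_one' := LinearMap.ext fun w => Subtype.ext (by simp)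
      map_mul' := fun a b => LinearMap.ext fun w => Subtype.ext (by simp [Module.End.mul_apply]) }
  let f : G →* Matrix (Fin 3) (Fin 3) k :=
    (LinearMap.toMatrixAlgEquiv bW : _ ≃ₐ[k] Matrix (Fin 3) (Fin 3) k).toAlgHom.toMonoidHom.comp r
  let Bil : LinearMap.BilinForm k (LinearMap.range π) :=
    B.compl₁₂ (LinearMap.range π).subtype (LinearMap.range π).subtype
  refine ⟨f, LinearMap.BilinForm.toMatrix bW Bil, ?_, ?_, fun g => ?_, fun hfu => ?_⟩
  · ext i j
    simp only [transpose_apply, LinearMap.BilinForm.toMatrix_apply]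
    exact hBs _ _
  · rw [← LinearMap.BilinForm.nondegenerate_iff_det_ne_zero bW]
    have key : ∀ w : LinearMap.range π, (∀ x, Bil w x = 0) → w = 0 := fun w hw => by
      refine Subtype.ext (trForm_nondeg fun b => ?_)
      have hwπ : π (w : Module.End k V) = w := by
        obtain ⟨a, ha⟩ := w.2
        rw [← ha, ← Module.End.mul_apply, hππ]
      rw [← hB, ← hwπ, hπsa]
      exact hw ⟨π b, ⟨b, rfl⟩⟩
    refine ⟨key, fun w hw => key w fun x => ?_⟩
    exact (hBs _ _).trans (hw x)
  · show (LinearMap.toMatrix bW bW (r g)).transpose * _ * LinearMap.toMatrix bW bW (r g) = _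
    rw [LinearMap.BilinForm.mul_toMatrix_mul bW bW, Matrix.transpose_transpose, Matrix.toLin_toMatrix]
    congr 1
    refine LinearMap.ext₂ fun a b => ?_
    exact hBG g a b
  · have hru : r u = 1 := (LinearMap.toMatrixAlgEquiv bW).injective (hfu.trans (map_one _).symm)
    have hπE : π E = E := by rw [hπe E huE, heid E hEU]
    have h0 := congrArg Subtype.val (LinearMap.congr_fun hru ⟨π H, ⟨H, rfl⟩⟩)
    have h1 : τ u (π H) = π H + 2 • E := by
      rw [← Module.End.mul_apply, (hπc u).eq, Module.End.mul_apply, huH, map_add, map_nsmul, hπE]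
    have h3 : π H + 2 • E = π H := h1.symm.trans h0
    rw [add_eq_left] at h3
    rw [← Nat.cast_smul_eq_nsmul k] at h3
    have h4 := congrArg (fun x => B x F) h3
    simp only [map_smul, LinearMap.smul_apply, map_zero, LinearMap.zero_apply, smul_eq_mul,
      Nat.cast_ofNat] at h4
    exact mul_ne_zero h2 t1 h4

end Cfsg.Agent.SL2Mod
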