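import Mathlib

/-!
# The binomial matrices of the standard module of dimension `m` of `SL(2)`
-/

set_option linter.unusedSectionVars false
set_option autoImplicit false

noncomputable section

namespace Cfsg.Agent.SL2Mod

open Matrix

variable (k : Type*) [Field k] (m : ℕ)

/-- The translation `t ↦ t + 1` on polynomials of degree below `m`. -/
def Tm : Matrix (Fin m) (Fin m) k := of fun l j => ((Nat.choose (j : ℕ) (l : ℕ) : ℕ) : k)

/-- The derivative. -/
def Em : Matrix (Fin m) (Fin m) k := of fun l j => if (l : ℕ) + 1 = (j : ℕ) then ((j : ℕ) : k) else 0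

/-- The diagonal weight operator. -/
def Hm : Matrix (Fin m) (Fin m) k := diagonal fun j => 2 * ((j : ℕ) : k) + 1 - (m : k)

/-- The lowering operator. -/
def Fm : Matrix (Fin m) (Fin m) k :=
  of fun l j => if (j : ℕ) + 1 = (l : ℕ) then ((j : ℕ) : k) + 1 - (m : k) else 0

/-- The dilation fixing the top vector. -/
def Dm (h : k) : Matrix (Fin m) (Fin m) k := diagonal fun l => h ^ (m - 1 - (l : ℕ))

variable {k m}

theorem mul_Em_apply (A : Matrix (Fin m) (Fin m) k) (l j : Fin m) :
    (A * Em k m) l j = if hj : 0 < (j : ℕ) then A l ⟨(j : ℕ) - 1, by omega⟩ * ((j : ℕ) : k) else 0 := by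
  rw [mul_apply]
  split_ifs with hj
  · rw [Finset.sum_eq_single (⟨(j : ℕ) - 1, by omega⟩ : Fin m)]
    · simp [Em]; omega
    · intro i _ hi
      rw [Em, of_apply, if_neg fun h => hi (Fin.ext (by simp; omega)), mul_zero]
    · exact fun h => absurd (Finset.mem_univ _) h
  · refine Finset.sum_eq_zero fun i _ => ?_
    rw [Em, of_apply, if_neg (by omega), mul_zero]

theorem Em_mul_apply (A : Matrix (Fin m) (Fin m) k) (l j : Fin m) :
    (Em k m * A) l j = if hl : (l : ℕ) + 1 < m then (((l : ℕ) + 1 : ℕ) : k) * A ⟨(l : ℕ) + 1, hl⟩ j else 0 := by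
  rw [mul_apply]
  split_ifs with hl
  · rw [Finset.sum_eq_single (⟨(l : ℕ) + 1, hl⟩ : Fin m)]
    · simp [Em]
    · intro i _ hi
      rw [Em, of_apply, if_neg fun h => hi (Fin.ext (by simp; omega)), zero_mul]
    · exact fun h => absurd (Finset.mem_univ _) h
  · refine Finset.sum_eq_zero fun i _ => ?_
    rw [Em, of_apply, if_neg (by have := i.2; omega), zero_mul]

theorem mul_Fm_apply (A : Matrix (Fin m) (Fin m) k) (l j : Fin m) :
    (A * Fm k m) l j = if hj : (j : ℕ) + 1 < m then A l ⟨(j : ℕ) + 1, hj⟩ * (((j : ℕ) : k) + 1 - m) else 0 := by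
  rw [mul_apply]
  split_ifs with hj
  · rw [Finset.sum_eq_single (⟨(j : ℕ) + 1, hj⟩ : Fin m)]
    · simp [Fm]
    · intro i _ hi
      rw [Fm, of_apply, if_neg fun h => hi (Fin.ext (by simp; omega)), mul_zero]
    · exact fun h => absurd (Finset.mem_univ _) h
  · refine Finset.sum_eq_zero fun i _ => ?_
    rw [Fm, of_apply, if_neg (by have := i.2; omega), mul_zero]

theorem Fm_mul_apply (A : Matrix (Fin m) (Fin m) k) (l j : Fin m) :
    (Fm k m * A) l j = if hl : 0 < (l : ℕ) then (((l : ℕ) : k) - m) * A ⟨(l : ℕ) - 1, by omega⟩ j else 0 := by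
  rw [mul_apply]
  split_ifs with hl
  · rw [Finset.sum_eq_single (⟨(l : ℕ) - 1, by omega⟩ : Fin m)]
    · rw [Fm, of_apply, if_pos (by simp; omega)]
      push_cast [Nat.cast_sub (show 1 ≤ (l : ℕ) by omega)]
      ring
    · intro i _ hi
      rw [Fm, of_apply, if_neg fun h => hi (Fin.ext (by simp; omega)), zero_mul]
    · exact fun h => absurd (Finset.mem_univ _) h
  · refine Finset.sum_eq_zero fun i _ => ?_
    rw [Fm, of_apply, if_neg (by omega), zero_mul]

/-- The absorption identity, in the field. -/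
theorem choose_succ_cast (j l : ℕ) :
    ((l : k) + 1) * ((j.choose (l + 1) : ℕ) : k) = ((j : k) - l) * ((j.choose l : ℕ) : k) := by
  rcases Nat.lt_or_ge j l with h | h
  · simp [Nat.choose_eq_zero_of_lt h, Nat.choose_eq_zero_of_lt (show j < l + 1 by omega)]
  · have := congrArg (fun z : ℕ => (z : k)) (Nat.choose_succ_right_eq j l)
    push_cast [Nat.cast_sub h] at this
    linear_combination this

theorem Tm_mul_Em : Tm k m * Em k m = Em k m * Tm k m := by
  ext l j
  rw [mul_Em_apply, Em_mul_apply]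
  have hjm := j.2
  split_ifs with hj hl hl
  · simp only [Tm, of_apply]
    obtain ⟨i, hi⟩ : ∃ i, (j : ℕ) = i + 1 := ⟨(j : ℕ) - 1, by omega⟩
    rw [hi, Nat.add_sub_cancel, mul_comm]
    exact_mod_cast congrArg (fun z : ℕ => (z : k)) (show (i + 1) * i.choose l = ((l : ℕ) + 1) * (i + 1).choose (l + 1) by
      rw [Nat.add_one_mul_choose_eq, mul_comm])
  · simp only [Tm, of_apply]
    rw [Nat.choose_eq_zero_of_lt (show (j : ℕ) - 1 < (l : ℕ) by omega), Nat.cast_zero, zero_mul]
  · simp only [Tm, of_apply]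
    rw [Nat.choose_eq_zero_of_lt (show (j : ℕ) < (l : ℕ) + 1 by omega), Nat.cast_zero, mul_zero]
  · rfl

theorem Tm_mul_Hm : Tm k m * Hm k m = (Hm k m + 2 • Em k m) * Tm k m := by
  ext l j
  rw [Matrix.add_mul, Matrix.smul_mul, Hm, mul_diagonal, Matrix.add_apply, diagonal_mul, Matrix.smul_apply,
    Em_mul_apply, nsmul_eq_mul]
  simp only [Tm, of_apply]
  have key := choose_succ_cast (k := k) (j : ℕ) (l : ℕ)
  split_ifs with hl
  · push_cast
    linear_combination -2 * key
  · rw [Nat.choose_eq_zero_of_lt (show (j : ℕ) < (l : ℕ) + 1 by omega)] at key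
    push_cast at key ⊢
    linear_combination -2 * key

theorem Tm_mul_Fm : Tm k m * Fm k m = (Fm k m + Hm k m + Em k m) * Tm k m := by
  ext l j
  rw [Matrix.add_mul, Matrix.add_mul, Matrix.add_apply, Matrix.add_apply, mul_Fm_apply, Fm_mul_apply,
    Em_mul_apply, Hm, diagonal_mul]
  simp only [Tm, of_apply]
  have key := choose_succ_cast (k := k) (j : ℕ) (l : ℕ)
  have hj1 : (if hj : (j : ℕ) + 1 < m then (((Fin.mk ((j : ℕ) + 1) hj : Fin m) : ℕ).choose l : k) *
      (((j : ℕ) : k) + 1 - m) else 0) = (((j : ℕ) + 1).choose l : k) * (((j : ℕ) : k) + 1 - m) := by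
    split_ifs with hj
    · rfl
    · have : ((j : ℕ) : k) + 1 - m = 0 := by
        rw [← Nat.cast_one, ← Nat.cast_add, show (j : ℕ) + 1 = m by omega, sub_self]
      rw [this, mul_zero]
  rw [hj1]
  have hl1 : (if hl : (l : ℕ) + 1 < m then (((l : ℕ) + 1 : ℕ) : k) *
      ((j : ℕ).choose ((Fin.mk ((l : ℕ) + 1) hl : Fin m) : ℕ) : k) else 0) =
      (((l : ℕ) : k) + 1) * ((j : ℕ).choose ((l : ℕ) + 1) : k) := by
    split_ifs with hl
    · push_cast; ring
    · rw [Nat.choose_eq_zero_of_lt (show (j : ℕ) < (l : ℕ) + 1 by omega), Nat.cast_zero, mul_zero]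
  rw [hl1, key]
  split_ifs with hl
  · obtain ⟨i, hi⟩ : ∃ i, (l : ℕ) = i + 1 := ⟨(l : ℕ) - 1, by omega⟩
    simp only [hi, Nat.add_sub_cancel, Nat.choose_succ_succ', Nat.cast_add, Nat.cast_one]
    have key2 := choose_succ_cast (k := k) (j : ℕ) i
    linear_combination -key2
  · have : (l : ℕ) = 0 := by omega
    simp [this]
    ring

theorem Tm_pow (a : ℕ) (l j : Fin m) :
    (Tm k m ^ a) l j = ((j : ℕ).choose (l : ℕ) : k) * (a : k) ^ ((j : ℕ) - (l : ℕ)) := by
  induction a generalizing l j with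
  | zero =>
    rw [pow_zero, one_apply, Nat.cast_zero]
    split_ifs with h
    · subst h; simp
    · rcases Nat.lt_trichotomy (j : ℕ) (l : ℕ) with h' | h' | h'
      · simp [Nat.choose_eq_zero_of_lt h']
      · exact absurd (Fin.ext h'.symm) h
      · rw [zero_pow (by omega), mul_zero]
  | succ a ih =>
    rw [pow_succ, mul_apply]
    simp only [ih]
    simp only [Tm, of_apply]
    rw [Fin.sum_univ_eq_sum_range (fun i => ((i.choose (l : ℕ) : ℕ) : k) * (a : k) ^ (i - (l : ℕ)) *
      (((j : ℕ).choose i : ℕ) : k))]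
    rcases Nat.lt_or_ge (j : ℕ) (l : ℕ) with hjl | hjl
    · rw [Nat.choose_eq_zero_of_lt hjl, Nat.cast_zero, zero_mul]
      refine Finset.sum_eq_zero fun i _ => ?_
      rcases Nat.lt_or_ge i (l : ℕ) with h | h
      · simp [Nat.choose_eq_zero_of_lt h]
      · simp [Nat.choose_eq_zero_of_lt (show (j : ℕ) < i by omega)]
    rw [← Finset.sum_subset (show Finset.Ico (l : ℕ) ((j : ℕ) + 1) ⊆ Finset.range m from fun i hi => by
        rw [Finset.mem_Ico] at hi; rw [Finset.mem_range]; have := j.2; omega) fun i _ hi => by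
      rw [Finset.mem_Ico, not_and_or, not_le, not_lt] at hi
      rcases hi with h | h
      · simp [Nat.choose_eq_zero_of_lt h]
      · simp [Nat.choose_eq_zero_of_lt (show (j : ℕ) < i by omega)],
      Finset.sum_Ico_eq_sum_range, Nat.cast_add, Nat.cast_one, add_pow, Finset.mul_sum,
      show (j : ℕ) + 1 - (l : ℕ) = (j : ℕ) - (l : ℕ) + 1 by omega]
    refine Finset.sum_congr rfl fun i hi => ?_
    have e := congrArg (fun z : ℕ => (z : k))
      (Nat.choose_mul (n := (j : ℕ)) (k := (l : ℕ) + i) (s := (l : ℕ)) (by omega))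
    push_cast [Nat.add_sub_cancel_left] at e
    rw [Nat.add_sub_cancel_left, one_pow, mul_one]
    linear_combination (a : k) ^ i * e

theorem Dm_mul_Tm (a : ℕ) : Dm k m (a : k) * Tm k m = Tm k m ^ a * Dm k m (a : k) := by
  ext l j
  rw [Dm, diagonal_mul, mul_diagonal, Tm_pow, Tm, of_apply]
  rcases Nat.lt_or_ge (j : ℕ) (l : ℕ) with h | h
  · simp [Nat.choose_eq_zero_of_lt h]
  · have := j.2
    rw [show m - 1 - (l : ℕ) = ((j : ℕ) - (l : ℕ)) + (m - 1 - (j : ℕ)) by omega, pow_add]
    ring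

theorem Dm_mul_Em (h : k) : Dm k m h * Em k m = h • (Em k m * Dm k m h) := by
  ext l j
  rw [Dm, diagonal_mul, Matrix.smul_apply, mul_diagonal, Em, of_apply, smul_eq_mul]
  have := j.2
  split_ifs with hlj
  · rw [show m - 1 - (l : ℕ) = (m - 1 - (j : ℕ)) + 1 by omega, pow_succ]; ring
  · simp

theorem Fm_mul_Dm (h : k) : Fm k m * Dm k m h = h • (Dm k m h * Fm k m) := by
  ext l j
  rw [Dm, mul_diagonal, Matrix.smul_apply, diagonal_mul, Fm, of_apply, smul_eq_mul]
  have := l.2
  split_ifs with hlj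
  · rw [show m - 1 - (j : ℕ) = (m - 1 - (l : ℕ)) + 1 by omega, pow_succ]; ring
  · simp

theorem Dm_mul_Hm (h : k) : Dm k m h * Hm k m = Hm k m * Dm k m h := by
  rw [Dm, Hm, diagonal_mul_diagonal, diagonal_mul_diagonal]
  simp only [mul_comm]

theorem sum_range_mul_sub (M : k) : ∀ n : ℕ,
    6 * ∑ j ∈ Finset.range n, (j : k) * ((j : k) - M) = (n : k) * (n - 1) * (2 * n - 1) - 3 * M * n * (n - 1)
  | 0 => by simp
  | n + 1 => by
    rw [Finset.sum_range_succ, mul_add, sum_range_mul_sub M n]; push_cast; ring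

theorem sum_range_weight_sq (M : k) : ∀ n : ℕ,
    3 * ∑ j ∈ Finset.range n, (2 * (j : k) + 1 - M) ^ 2 =
      (n : k) * (2 * n - 1) * (2 * n + 1) - 6 * M * n * n + 3 * M ^ 2 * n
  | 0 => by simp
  | n + 1 => by
    rw [Finset.sum_range_succ, mul_add, sum_range_weight_sq M n]; push_cast; ring

theorem six_trace_EF : 6 * trace (Em k m * Fm k m) = -((m : k) * (m - 1) * (m + 1)) := by
  rw [trace]
  have e : ∀ j : Fin m, (Em k m * Fm k m) j j = (if (j : ℕ) + 1 < m then (((j : ℕ) + 1 : ℕ) : k) *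
      ((((j : ℕ) + 1 : ℕ) : k) - m) else 0) := fun j => by
    rw [Em_mul_apply]
    split_ifs with h
    · simp [Fm]
    · rfl
  simp only [diag_apply, e]
  rw [Fin.sum_univ_eq_sum_range (fun j => if j + 1 < m then ((j + 1 : ℕ) : k) * (((j + 1 : ℕ) : k) - m) else 0)]
  have h2 : ∑ j ∈ Finset.range m, (if j + 1 < m then ((j + 1 : ℕ) : k) * (((j + 1 : ℕ) : k) - m) else 0)
      = ∑ j ∈ Finset.range m, (j : k) * ((j : k) - m) := by
    rcases m with _ | n
    · simp
    rw [Finset.sum_range_succ' (fun j => (j : k) * ((j : k) - ((n + 1 : ℕ) : k))),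
      Finset.sum_range_succ, if_neg (lt_irrefl _)]
    simp only [Nat.cast_zero, zero_mul, add_zero]
    exact Finset.sum_congr rfl fun j hj => by rw [Finset.mem_range] at hj; rw [if_pos (by omega)]
  rw [h2, sum_range_mul_sub]
  ring

theorem three_trace_HH : 3 * trace (Hm k m * Hm k m) = (m : k) * (m - 1) * (m + 1) := by
  rw [Hm, diagonal_mul_diagonal, trace_diagonal, Fin.sum_univ_eq_sum_range
    (fun j => (2 * (j : k) + 1 - m) * (2 * (j : k) + 1 - m))]
  simp only [← sq]
  rw [sum_range_weight_sq]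
  ring

theorem trace_EE : trace (Em k m * Em k m) = 0 := Finset.sum_eq_zero fun j _ => by
  rw [diag_apply, mul_Em_apply]
  split_ifs with h
  · rw [Em, of_apply, if_neg (by simp; omega), zero_mul]
  · rfl

theorem trace_FF : trace (Fm k m * Fm k m) = 0 := Finset.sum_eq_zero fun j _ => by
  rw [diag_apply, mul_Fm_apply]
  split_ifs with h
  · rw [Fm, of_apply, if_neg (by simp; omega), zero_mul]
  · rfl

theorem trace_EH : trace (Em k m * Hm k m) = 0 := Finset.sum_eq_zero fun j _ => by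
  rw [diag_apply, Hm, mul_diagonal, Em, of_apply, if_neg (by omega), zero_mul]

theorem trace_FH : trace (Fm k m * Hm k m) = 0 := Finset.sum_eq_zero fun j _ => by
  rw [diag_apply, Hm, mul_diagonal, Fm, of_apply, if_neg (by omega), zero_mul]

end Cfsg.Agent.SL2Mod
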