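import Cfsg.Agent.SL2Mod.Trick
import Cfsg.Agent.SL2Mod.Std

/-!
# An irreducible module of small dimension at the normaliser of a subgroup of order `p`

It is a tensor product of the standard module of dimension `m` with a module of the complement.
-/

set_option linter.style.haveILetI false
set_option linter.unusedSectionVars false
set_option autoImplicit false

noncomputable section

namespace Cfsg.Agent.SL2Mod

open scoped Classical
open Matrix

section Act

variable {k : Type*} [Field k] {m : ℕ} {S : Type*} [AddCommGroup S] [Module k S]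

/-- Matrices acting on vectors of vectors. -/
def actM (a : Matrix (Fin m) (Fin m) k) : Module.End k (Fin m → S) where
  toFun f l := ∑ j, a l j • f j
  map_add' f g := funext fun l => by simp [smul_add, Finset.sum_add_distrib]
  map_smul' c f := funext fun l => by
    simp [Finset.smul_sum, smul_comm c]

theorem actM_apply (a : Matrix (Fin m) (Fin m) k) (f : Fin m → S) (l : Fin m) :
    actM a f l = ∑ j, a l j • f j := rfl

theorem actM_mul (a b : Matrix (Fin m) (Fin m) k) : actM (S := S) (a * b) = actM a * actM b := by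
  refine LinearMap.ext fun f => funext fun l => ?_
  rw [Module.End.mul_apply, actM_apply, actM_apply]
  simp only [actM_apply, Finset.smul_sum, smul_smul, Matrix.mul_apply, Finset.sum_smul]
  exact Finset.sum_comm

theorem actM_one : actM (S := S) (1 : Matrix (Fin m) (Fin m) k) = 1 := by
  refine LinearMap.ext fun f => funext fun l => ?_
  simp [actM_apply, Matrix.one_apply, Finset.sum_ite_eq, ite_smul]

theorem actM_smul (c : k) (a : Matrix (Fin m) (Fin m) k) : actM (S := S) (c • a) = c • actM a := by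
  refine LinearMap.ext fun f => funext fun l => ?_
  simp [actM_apply, Finset.smul_sum, smul_smul]

theorem actM_add (a b : Matrix (Fin m) (Fin m) k) : actM (S := S) (a + b) = actM a + actM b := by
  refine LinearMap.ext fun f => funext fun l => ?_
  simp [actM_apply, add_smul, Finset.sum_add_distrib]

theorem actM_pow (a : Matrix (Fin m) (Fin m) k) (i : ℕ) : actM (S := S) (a ^ i) = actM a ^ i := by
  induction i with
  | zero => rw [pow_zero, pow_zero, actM_one]
  | succ i ih => rw [pow_succ, pow_succ, actM_mul, ih]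

theorem trace_actM [FiniteDimensional k S] (a : Matrix (Fin m) (Fin m) k) :
    LinearMap.trace k (Fin m → S) (actM a) = (Module.finrank k S : k) * Matrix.trace a := by
  let b := Module.finBasis k S
  rw [LinearMap.trace_eq_matrix_trace k (Pi.basis fun _ : Fin m => b), Matrix.trace, Matrix.trace,
    Fintype.sum_sigma, Finset.mul_sum]
  refine Finset.sum_congr rfl fun l _ => ?_
  have e : ∀ i : Fin (Module.finrank k S),
      (LinearMap.toMatrix (Pi.basis fun _ : Fin m => b) (Pi.basis fun _ : Fin m => b) (actM a)).diag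
        ⟨l, i⟩ = a l l := fun i => by
    rw [diag_apply, LinearMap.toMatrix_apply, Pi.basis_repr, actM_apply,
      Finset.sum_eq_single l]
    · simp [Pi.basis_apply]
    · intro j _ hj
      simp [Pi.basis_apply, Pi.single_apply, hj]
    · exact fun h => absurd (Finset.mem_univ _) h
  rw [Finset.sum_congr rfl fun i _ => e i]
  simp [diag_apply, mul_comm]

end Act

section Delta

variable {k : Type*} [Field k] {p : ℕ} [Fact p.Prime] [CharP k p] {m : ℕ}

/-- The difference operator. -/
def Dl (k : Type*) [Field k] (m : ℕ) : Matrix (Fin m) (Fin m) k := Tm k m - 1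

theorem Dl_apply_of_le {l j : Fin m} (h : (j : ℕ) ≤ (l : ℕ)) : Dl k m l j = 0 := by
  rw [Dl, Matrix.sub_apply, Tm, of_apply, one_apply]
  rcases h.lt_or_eq with h' | h'
  · rw [Nat.choose_eq_zero_of_lt h', if_neg (by omega)]; simp
  · rw [if_pos (Fin.ext h'.symm), h', Nat.choose_self]; simp

theorem Dl_pow_apply_of_lt (i : ℕ) {l j : Fin m} (h : (j : ℕ) < (l : ℕ) + i) : (Dl k m ^ i) l j = 0 := by
  induction i generalizing j with
  | zero => rw [pow_zero, one_apply, if_neg (by omega)]
  | succ i ih =>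
    rw [pow_succ, mul_apply]
    refine Finset.sum_eq_zero fun x _ => ?_
    rcases Nat.lt_or_ge (x : ℕ) ((l : ℕ) + i) with hx | hx
    · rw [ih hx, zero_mul]
    · rw [Dl_apply_of_le (by omega), mul_zero]

theorem Dl_pow_lead (i : ℕ) {l j : Fin m} (h : (j : ℕ) = (l : ℕ) + i) :
    (Dl k m ^ i) l j = ((j : ℕ).descFactorial i : k) := by
  induction i generalizing j with
  | zero => rw [pow_zero, one_apply, if_pos (Fin.ext (by omega))]; simp
  | succ i ih =>
    rw [pow_succ, mul_apply, Finset.sum_eq_single (⟨(j : ℕ) - 1, by omega⟩ : Fin m)]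
    · rw [ih (by simp; omega)]
      simp only [Dl, Matrix.sub_apply, Tm, of_apply]
      rw [one_apply, if_neg fun h' => by have := congrArg Fin.val h'; simp at this; omega, sub_zero]
      obtain ⟨j', hj'⟩ : ∃ j', (j : ℕ) = j' + 1 := ⟨(j : ℕ) - 1, by omega⟩
      simp only [hj', Nat.add_sub_cancel, Nat.choose_succ_self_right, Nat.succ_descFactorial_succ,
        ← Nat.cast_mul]
      rw [mul_comm]
    · intro x _ hx
      rcases Nat.lt_or_ge (x : ℕ) ((l : ℕ) + i) with hx' | hx'
      · rw [Dl_pow_apply_of_lt i hx', zero_mul]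
      · rw [Dl_apply_of_le ?_, mul_zero]
        have : (x : ℕ) ≠ (j : ℕ) - 1 := fun e => hx (Fin.ext e)
        omega
    · exact fun h' => absurd (Finset.mem_univ _) h'

theorem Dl_pow_eq_zero : Dl k m ^ m = 0 := by
  ext l j
  rw [Dl_pow_apply_of_lt m (by omega)]
  rfl

/-- The columns of the powers of the difference operator at the top vector. -/
def Th (k : Type*) [Field k] (m : ℕ) (top : Fin m) : Matrix (Fin m) (Fin m) k :=
  of fun l i => (Dl k m ^ (i : ℕ)) l top

theorem det_Th_ne_zero (hm : m < p) {top : Fin m} (htop : (top : ℕ) + 1 = m) :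
    (Th k m top).det ≠ 0 := by
  intro hdet
  obtain ⟨c, hc0, hc⟩ := Matrix.exists_mulVec_eq_zero_iff.2 hdet
  obtain ⟨i, hi⟩ : ∃ i, c i ≠ 0 := by
    by_contra h; push Not at h; exact hc0 (funext h)
  obtain ⟨i0, hi0, hmin⟩ : ∃ i0, c i0 ≠ 0 ∧ ∀ x, x < i0 → c x = 0 := by
    obtain ⟨i0, hi0, hmin⟩ := Finset.exists_min_image (Finset.univ.filter fun x => c x ≠ 0) id
      ⟨i, by simpa using hi⟩
    refine ⟨i0, (Finset.mem_filter.1 hi0).2, fun x hx => ?_⟩
    by_contra h
    exact absurd (hmin x (by simpa using h)) (not_le.2 hx)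
  have h := congrFun hc ⟨(top : ℕ) - (i0 : ℕ), by omega⟩
  rw [Matrix.mulVec, dotProduct, Finset.sum_eq_single i0] at h
  · rw [Th, of_apply, Dl_pow_lead _ (by have := i0.2; simp; omega)] at h
    rcases mul_eq_zero.1 (show _ * c i0 = 0 from h) with h' | h'
    · rw [CharP.cast_eq_zero_iff k p, Nat.descFactorial_eq_div (by have := i0.2; omega)] at h'
      have hd : p ∣ Nat.factorial (top : ℕ) := h'.trans (Nat.div_dvd_of_dvd
        (Nat.factorial_dvd_factorial (Nat.sub_le _ _)))
      have := ((Fact.out : p.Prime).dvd_factorial).1 hd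
      omega
    · exact hi0 h'
  · intro x _ hx
    rcases lt_or_gt_of_ne hx with hx' | hx'
    · rw [hmin x hx', mul_zero]
    · rw [Th, of_apply, Dl_pow_apply_of_lt _ (by have := i0.2; have : (i0 : ℕ) < (x : ℕ) := hx'; simp; omega),
        zero_mul]
  · exact fun h' => absurd (Finset.mem_univ _) h'

/-- The shift matrix. -/
def Sh (k : Type*) [Field k] (m : ℕ) : Matrix (Fin m) (Fin m) k :=
  of fun l i => if (l : ℕ) = (i : ℕ) + 1 then 1 else 0

theorem Dl_mul_Th {top : Fin m} : Dl k m * Th k m top = Th k m top * Sh k m := by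
  ext l i
  have e : (Dl k m * Th k m top) l i = (Dl k m ^ ((i : ℕ) + 1)) l top := by
    rw [pow_succ', mul_apply, mul_apply]; rfl
  rw [e, mul_apply]
  rcases Nat.lt_or_ge ((i : ℕ) + 1) m with h | h
  · rw [Finset.sum_eq_single (⟨(i : ℕ) + 1, h⟩ : Fin m)]
    · simp [Sh, Th]
    · intro x _ hx
      rw [Sh, of_apply, if_neg fun e' => hx (Fin.ext e'), mul_zero]
    · exact fun h' => absurd (Finset.mem_univ _) h'
  · rw [show (i : ℕ) + 1 = m by omega, Dl_pow_eq_zero]
    symm
    refine (Finset.sum_eq_zero fun x _ => ?_).trans rfl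
    rw [Sh, of_apply, if_neg (by omega), mul_zero]

end Delta

universe u v w

variable {k : Type u} [Field k] {G : Type v} [Group G] [Fintype G] {V : Type w} [AddCommGroup V]
  [Module k V] [FiniteDimensional k V] {p : ℕ} [Fact p.Prime] [CharP k p]

theorem conj_pow_sub_one_killed {u y : G} (ρ : Representation k G V) {h : ℕ} (hy : y * u * y⁻¹ = u ^ h)
    (i : ℕ) {v : V} (hv : ((ρ u - 1) ^ i) v = 0) : ((ρ u ^ h - 1) ^ i) v = 0 ∧
      ((ρ u ^ h - 1) ^ i) (ρ y v) = ρ y (((ρ u - 1) ^ i) v) := by
  constructor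
  · obtain ⟨c, hc⟩ : ∃ c : Module.End k V, ρ u ^ h - 1 = c * (ρ u - 1) ∧ Commute c (ρ u - 1) :=
      ⟨∑ j ∈ Finset.range h, ρ u ^ j, (geom_sum_mul (ρ u) h).symm,
        Commute.sum_left _ _ _ fun j _ => ((Commute.refl (ρ u)).pow_left j).sub_right (Commute.one_right _)⟩
    rw [hc.1, hc.2.mul_pow, Module.End.mul_apply, hv, map_zero]
  · have h1 : (ρ u ^ h - 1) * ρ y = ρ y * (ρ u - 1) := by
      rw [sub_mul, mul_sub, one_mul, mul_one, ← map_pow, ← map_mul, ← map_mul]
      congr 2
      rw [← hy]; group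
    have h2 : SemiconjBy (ρ y) (ρ u - 1) (ρ u ^ h - 1) := h1.symm
    have h3 := (h2.pow_right i).eq
    rw [← Module.End.mul_apply, ← h3, Module.End.mul_apply]

/-- The model of an irreducible representation of dimension below `p / 2` at the normaliser. -/
theorem exists_model (ρ : Representation k G V) (hirr : ∀ U : Submodule k V,
      (∀ g, ∀ v ∈ U, ρ g v ∈ U) → U = ⊥ ∨ U = ⊤)
    (P : Sylow p G) (hP : Nat.card P = p) {u : G} (hu : (P : Subgroup G) = Subgroup.zpowers u)
    (hord : orderOf u = p) (hρu : ρ u ≠ 1) (hdim : 2 * Module.finrank k V < p) :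
    ∃ (m : ℕ) (ι : Matrix (Fin m) (Fin m) k →+* Module.End k V) (s : ℕ),
      2 ≤ m ∧ 2 * m < p ∧ (s : k) ≠ 0 ∧ (∀ (c : k) a, ι (c • a) = c • ι a) ∧
      (∀ a, LinearMap.trace k V (ι a) = (s : k) * Matrix.trace a) ∧ ρ u = ι (Tm k m) ∧
      ∀ y ∈ Subgroup.normalizer ((P : Subgroup G) : Set G), ∃ (x : G) (h : G) (c : k),
        y = x * h ∧ x ∈ Subgroup.zpowers u ∧ c ≠ 0 ∧
        ρ h * ι (Em k m) = c • (ι (Em k m) * ρ h) ∧
        ρ h * ι (Hm k m) = ι (Hm k m) * ρ h ∧
        ι (Fm k m) * ρ h = c • (ρ h * ι (Fm k m)) := by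
  have hp : p.Prime := Fact.out
  set X : Module.End k V := ρ u - 1 with hXdef
  haveI : CharP (Module.End k V) p := by
    haveI : Nontrivial V := by
      by_contra h
      rw [not_nontrivial_iff_subsingleton] at h
      exact hρu (LinearMap.ext fun v => Subsingleton.elim _ _)
    exact charP_of_injective_algebraMap (algebraMap k (Module.End k V)).injective p
  have hXnil : IsNilpotent X := ⟨p, by
    rw [hXdef, sub_pow_char_of_commute p (Commute.one_right (ρ u)), ← map_pow,
      show u ^ p = 1 from orderOf_dvd_iff_pow_eq_one.1 hord.dvd, map_one, one_pow, sub_self]⟩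
  have hXdim : X ^ Module.finrank k V = 0 := by
    have h1 := LinearMap.aeval_self_charpoly X
    rwa [hXnil.charpoly_eq_X_pow_finrank, map_pow, Polynomial.aeval_X] at h1
  set m := nilpotencyClass X with hmdef
  have hXm : X ^ m = 0 := pow_nilpotencyClass hXnil
  have hmle : m ≤ Module.finrank k V := Nat.sInf_le hXdim
  have hX0 : X ≠ 0 := fun h => hρu (sub_eq_zero.1 h)
  have hm2 : 2 ≤ m := by
    by_contra h
    exact hX0 (by rw [← pow_one X]; exact pow_eq_zero_of_le (by omega) hXm)
  have hXm1 : X ^ (m - 1) ≠ 0 := fun h => by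
    have : m ≤ m - 1 := Nat.sInf_le h
    omega
  set N := Subgroup.normalizer ((P : Subgroup G) : Set G) with hN
  have hPN : (P : Subgroup G) ≤ N := Subgroup.le_normalizer
  -- a complement
  set P' := (P : Subgroup G).subgroupOf N with hP'
  haveI : P'.Normal := Subgroup.normal_subgroupOf_iff_le_normalizer hPN |>.2 le_rfl
  have hP'c : Nat.card P' = p := (Nat.card_congr (Subgroup.subgroupOfEquivOfLe hPN).toEquiv).trans hP
  have hcop : Nat.Coprime (Nat.card P') P'.index := by
    rw [hP'c]
    refine hp.coprime_iff_not_dvd.2 fun h => ?_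
    have h1 : p * p ∣ Nat.card N := by
      rw [← P'.card_mul_index, hP'c]; exact Nat.mul_dvd_mul_left p h
    have h2 := P.pow_dvd_card_of_pow_dvd_card (n := 2)
      ((sq p).symm ▸ h1.trans N.card_subgroup_dvd_card)
    rw [hP] at h2
    have := Nat.le_of_dvd hp.pos h2
    nlinarith [hp.two_le]
  obtain ⟨H0, hH0⟩ := Subgroup.exists_right_complement'_of_coprime hcop
  haveI : Fintype H0 := Fintype.ofFinite _
  have hHp : ((Nat.card H0 : ℕ) : k) ≠ 0 := by
    rw [Ne, CharP.cast_eq_zero_iff k p, ← (Subgroup.IsComplement'.index_eq_card hH0.symm)]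
    exact fun h => hp.one_lt.ne' (Nat.eq_one_of_dvd_coprimes hcop (dvd_of_eq hP'c.symm) h)
  let σ : H0 →* Module.End k V := ρ.comp (N.subtype.comp H0.subtype)
  have hconj : ∀ y ∈ N, ∃ h : ℕ, y * u * y⁻¹ = u ^ h ∧ (h : k) ≠ 0 := by
    intro y hy
    have h1 : y * u * y⁻¹ ∈ (P : Subgroup G) :=
      (Subgroup.mem_normalizer_iff.1 hy u).1 (hu ▸ Subgroup.mem_zpowers u)
    rw [hu, ← mem_powers_iff_mem_zpowers] at h1
    obtain ⟨h, (hh : u ^ h = y * u * y⁻¹)⟩ := h1
    refine ⟨h, hh.symm, fun h0 => ?_⟩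
    rw [CharP.cast_eq_zero_iff k p, ← hord, orderOf_dvd_iff_pow_eq_one] at h0
    rw [show u ^ h = 1 from h0] at hh
    exact hp.ne_one (by rw [← hord, (conj_eq_one_iff).1 hh.symm, orderOf_one])
  have hkinv : ∀ i, ∀ y ∈ N, ∀ v, (X ^ i) v = 0 → (X ^ i) (ρ y v) = 0 := by
    intro i y hy v hv
    obtain ⟨h, hh, -⟩ := hconj y⁻¹ (inv_mem hy)
    obtain ⟨h0, -⟩ := conj_pow_sub_one_killed ρ hh i hv
    have h1 : SemiconjBy (ρ y) (ρ u ^ h - 1) X := by
      show ρ y * (ρ u ^ h - 1) = (ρ u - 1) * ρ y
      rw [mul_sub, sub_mul, one_mul, mul_one, ← map_pow, ← map_mul, ← map_mul, ← hh]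
      congr 2; group
    have h2 := (h1.pow_right i).eq
    rw [← Module.End.mul_apply, ← h2, Module.End.mul_apply, h0, map_zero]
  -- an invariant complement of the kernel
  set K := LinearMap.ker (X ^ (m - 1)) with hK
  obtain ⟨π0, hπ0⟩ : ∃ π0 : Module.End k V, LinearMap.IsProj K π0 := by
    obtain ⟨K', hK'⟩ := K.exists_isCompl
    exact ⟨_, LinearMap.isProj_range_iff_isIdempotentElem _ |>.2 (Submodule.IsCompl.projection_isIdempotentElem hK') |> fun h => by
      rwa [Submodule.IsCompl.projection_range hK'] at h⟩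
  let avg : Module.End k V → Module.End k V := fun A =>
    (Nat.card H0 : k)⁻¹ • ∑ y : H0, σ y * A * σ y⁻¹
  have havgc : ∀ A y, Commute (σ y) (avg A) := fun A y => by
    show σ y * _ = _ * σ y
    rw [mul_smul_comm, smul_mul_assoc, Finset.mul_sum, Finset.sum_mul]
    congr 1
    refine Fintype.sum_equiv (Equiv.mulLeft y) _ _ fun z => ?_
    rw [Equiv.coe_mulLeft, _root_.mul_inv_rev, map_mul, map_mul]
    simp only [mul_assoc]
    rw [← map_mul, inv_mul_cancel, map_one, mul_one]
  have hσinv : ∀ (y : H0) v, σ y (σ y⁻¹ v) = v := fun y v => by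
    rw [← Module.End.mul_apply, ← map_mul, mul_inv_cancel, map_one, Module.End.one_apply]
  set πK := avg π0 with hπK
  have hπKmem : ∀ v, πK v ∈ K := fun v => by
    rw [hπK]
    refine K.smul_mem _ ?_
    rw [LinearMap.sum_apply]
    exact K.sum_mem fun y _ => hkinv _ _ (y : N).2 _ (hπ0.map_mem _)
  have hπKid : ∀ v ∈ K, πK v = v := fun v hv => by
    show (Nat.card H0 : k)⁻¹ • (∑ y : H0, σ y * π0 * σ y⁻¹) v = v
    rw [LinearMap.sum_apply, Finset.sum_congr rfl fun y _ =>
      show (σ y * π0 * σ y⁻¹) v = v by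
        rw [Module.End.mul_apply, Module.End.mul_apply, hπ0.map_id (σ y⁻¹ v) (hkinv _ _ ((y⁻¹ : H0) : N).2 _ hv),
          hσinv],
      Finset.sum_const, Finset.card_univ, ← Nat.card_eq_fintype_card, ← Nat.cast_smul_eq_nsmul k,
      smul_smul, inv_mul_cancel₀ hHp, one_smul]
  set S0 := LinearMap.ker πK with hS0
  have hS0inv : ∀ (y : H0) (v : V), v ∈ S0 → σ y v ∈ S0 := fun y v hv => by
    rw [hS0, LinearMap.mem_ker] at hv ⊢
    rw [← Module.End.mul_apply, ← (havgc π0 y).eq, Module.End.mul_apply, hv, map_zero]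
  have hS0ker : ∀ v ∈ S0, (X ^ (m - 1)) v = 0 → v = 0 := fun v hv h => by
    rw [← hπKid v h]; exact hv
  -- the chain map
  let Γ : (Fin m → S0) →ₗ[k] V := ∑ i : Fin m, ((X ^ (i : ℕ)).comp S0.subtype).comp (LinearMap.proj i)
  have hΓ : ∀ f, Γ f = ∑ i : Fin m, (X ^ (i : ℕ)) (f i : V) := fun f => by simp [Γ]
  have hΓinj : Function.Injective Γ := by
    rw [← LinearMap.ker_eq_bot]
    refine LinearMap.ker_eq_bot'.2 fun f hf => ?_
    have key : ∀ n, ∀ i : Fin m, (i : ℕ) = n → f i = 0 := by
      intro n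
      induction n using Nat.strong_induction_on with
      | _ n ih =>
        intro i hi
        refine Subtype.ext (hS0ker _ (f i).2 ?_)
        have h1 := congrArg (X ^ (m - 1 - n)) hf
        rw [map_zero, hΓ, map_sum, Finset.sum_eq_single i] at h1
        · rw [← Module.End.mul_apply, ← pow_add, show m - 1 - n + (i : ℕ) = m - 1 by have := i.2; omega] at h1
          exact h1
        · intro j _ hj
          rcases lt_or_gt_of_ne (fun e => hj (Fin.ext e) : (j : ℕ) ≠ (i : ℕ)) with hlt | hlt
          · rw [ih (j : ℕ) (hi ▸ hlt) j rfl, Submodule.coe_zero, map_zero, map_zero]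
          · rw [← Module.End.mul_apply, ← pow_add, pow_eq_zero_of_le (by omega) hXm]; rfl
        · exact fun h' => absurd (Finset.mem_univ _) h'
    exact funext fun i => key _ i rfl
  set top : Fin m := ⟨m - 1, by omega⟩ with htop
  have hΓsh : ∀ f, Γ (actM (Sh k m) f) = X (Γ f) := by
    intro f
    rw [hΓ, hΓ, map_sum]
    simp only [actM_apply, Sh, of_apply, ite_smul, one_smul, zero_smul, AddSubmonoidClass.coe_finsetSum,
      map_sum]
    rw [Finset.sum_comm]
    refine Finset.sum_congr rfl fun i _ => ?_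
    rw [← Module.End.mul_apply, ← pow_succ']
    rcases Nat.lt_or_ge ((i : ℕ) + 1) m with h | h
    · rw [Finset.sum_eq_single (⟨(i : ℕ) + 1, h⟩ : Fin m)]
      · simp
      · intro l _ hl
        rw [if_neg fun e => hl (Fin.ext e), Submodule.coe_zero, map_zero]
      · exact fun h' => absurd (Finset.mem_univ _) h'
    · rw [pow_eq_zero_of_le h hXm, LinearMap.zero_apply]
      refine Finset.sum_eq_zero fun l _ => ?_
      rw [if_neg (by omega), Submodule.coe_zero, map_zero]
  -- it is onto
  have hΓsurj : Function.Surjective Γ := by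
    obtain ⟨L, hL⟩ := Γ.exists_leftInverse_of_injective (LinearMap.ker_eq_bot.2 hΓinj)
    let c0 : V →ₗ[k] S0 := (LinearMap.proj top).comp L
    let pr : Module.End k V := ∑ i : Fin m, (X ^ (i : ℕ)) * S0.subtype.comp c0 * (X ^ (m - 1 - (i : ℕ)))
    have hpr : ∀ v, pr v = Γ fun i => c0 ((X ^ (m - 1 - (i : ℕ))) v) := fun v => by
      simp [pr, hΓ, LinearMap.sum_apply]
    have hLΓ : ∀ f, L (Γ f) = f := fun f => LinearMap.congr_fun hL f
    have hshift : ∀ j : ℕ, ∀ f : Fin m → S0, (X ^ j) (Γ f) = Γ (actM (Sh k m ^ j) f) := by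
      intro j
      induction j with
      | zero => intro f; simp [actM_one]
      | succ j ih =>
        intro f
        rw [pow_succ', Module.End.mul_apply, ih, ← hΓsh, pow_succ', actM_mul, Module.End.mul_apply]
    have hShpow : ∀ (j : ℕ) (l i : Fin m), (Sh k m ^ j) l i = if (l : ℕ) = (i : ℕ) + j then 1 else 0 := by
      intro j
      induction j with
      | zero => intro l i; simp [one_apply, Fin.ext_iff]
      | succ j ih =>
        intro l i
        rw [pow_succ, mul_apply]
        simp only [ih]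
        simp only [Sh, of_apply, mul_ite, mul_one, mul_zero]
        rcases Nat.lt_or_ge ((i : ℕ) + 1) m with h | h
        · rw [Finset.sum_eq_single (⟨(i : ℕ) + 1, h⟩ : Fin m)]
          · simp only [if_true]
            split_ifs <;> first | rfl | omega
          · intro x _ hx
            rw [if_neg fun e => hx (Fin.ext e)]
          · exact fun h' => absurd (Finset.mem_univ _) h'
        · rw [if_neg (by have := l.2; omega)]
          exact Finset.sum_eq_zero fun x _ => if_neg (by omega)
    have hprF : ∀ f, pr (Γ f) = Γ f := by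
      intro f
      rw [hpr]
      congr 1
      funext i
      show L _ top = f i
      rw [hshift, hLΓ, actM_apply, Finset.sum_eq_single i]
      · rw [hShpow, if_pos (by have := i.2; simp [htop]; omega), one_smul]
      · intro j _ hj
        rw [hShpow, if_neg (fun e => hj (Fin.ext (by have := i.2; simp [htop] at e; omega))), zero_smul]
      · exact fun h' => absurd (Finset.mem_univ _) h'
    have hprX : Commute X pr := by
      refine LinearMap.ext fun v => ?_
      rw [Module.End.mul_apply, Module.End.mul_apply, hpr, hpr, ← hΓsh]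
      congr 1
      funext l
      rw [actM_apply]
      simp only [← Module.End.mul_apply, ← pow_succ]
      rcases Nat.eq_zero_or_pos (l : ℕ) with h | h
      · rw [Finset.sum_eq_zero (fun j _ => by simp [Sh, h])]
        rw [pow_eq_zero_of_le (by omega) hXm, LinearMap.zero_apply, map_zero]
      · rw [Finset.sum_eq_single (⟨(l : ℕ) - 1, by omega⟩ : Fin m)]
        · rw [Sh, of_apply, if_pos (by simp; omega), one_smul]
          congr 4
          simp; omega
        · intro j _ hj
          rw [Sh, of_apply, if_neg fun e => hj (Fin.ext (by simp; omega)), zero_smul]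
        · exact fun h' => absurd (Finset.mem_univ _) h'
    have hpru : Commute (ρ u) pr := by
      have := hprX.add_left (Commute.one_left pr)
      rwa [hXdef, sub_add_cancel] at this
    have hFinv : ∀ (y : H0) f, ∃ g, σ y (Γ f) = Γ g := by
      intro y f
      have hmem : ∀ i : Fin m, σ y ((X ^ (i : ℕ)) (f i : V)) ∈ LinearMap.range Γ := by
        intro i
        obtain ⟨h, hh, -⟩ := hconj _ (y : N).2
        have h1 : SemiconjBy (σ y) X (ρ u ^ h - 1) := by
          show ρ ((y : N) : G) * (ρ u - 1) = (ρ u ^ h - 1) * ρ ((y : N) : G)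
          rw [mul_sub, sub_mul, one_mul, mul_one, ← map_pow, ← map_mul, ← map_mul, ← hh]
          congr 2; group
        rw [← Module.End.mul_apply, (h1.pow_right (i : ℕ)).eq, Module.End.mul_apply]
        have hXr : ∀ w ∈ LinearMap.range Γ, X w ∈ LinearMap.range Γ := by
          rintro _ ⟨g, rfl⟩; exact ⟨_, hΓsh g⟩
        have hur : ∀ j : ℕ, ∀ w ∈ LinearMap.range Γ, (ρ u ^ j) w ∈ LinearMap.range Γ := by
          intro j
          induction j with
          | zero => intro w hw; simpa using hw
          | succ j ih =>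
            intro w hw
            rw [pow_succ, Module.End.mul_apply]
            refine ih _ ?_
            rw [show ρ u w = X w + w by simp [hXdef]]
            exact add_mem (hXr w hw) hw
        have hsr : σ y (f i : V) ∈ LinearMap.range Γ :=
          ⟨Pi.single ⟨0, by omega⟩ ⟨_, hS0inv y _ (f i).2⟩, by
            rw [hΓ, Finset.sum_eq_single ⟨0, by omega⟩]
            · simp
            · intro j _ hj; simp [Pi.single_eq_of_ne hj]
            · exact fun h' => absurd (Finset.mem_univ _) h'⟩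
        have : ∀ (n : ℕ), ∀ w ∈ LinearMap.range Γ, ((ρ u ^ h - 1) ^ n) w ∈ LinearMap.range Γ := by
          intro n
          induction n with
          | zero => intro w hw; simpa using hw
          | succ n ih =>
            intro w hw
            rw [pow_succ, Module.End.mul_apply]
            exact ih _ (sub_mem (hur h w hw) hw)
        exact this _ _ hsr
      obtain ⟨g, hg⟩ : σ y (Γ f) ∈ LinearMap.range Γ := by
        rw [hΓ, map_sum]; exact Submodule.sum_mem _ fun i _ => hmem i
      exact ⟨g, hg.symm⟩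
    set e := avg pr with hedef
    have hprmem : ∀ v, ∃ g, pr v = Γ g := fun v => ⟨_, hpr v⟩
    have hemem : ∀ v, e v ∈ LinearMap.range Γ := fun v => by
      refine Submodule.smul_mem _ _ ?_
      rw [LinearMap.sum_apply]
      refine Submodule.sum_mem _ fun y _ => ?_
      obtain ⟨g, hg⟩ := hprmem (σ y⁻¹ v)
      obtain ⟨g', hg'⟩ := hFinv y g
      exact ⟨g', by rw [Module.End.mul_apply, Module.End.mul_apply, hg, hg']⟩
    have heid : ∀ f, e (Γ f) = Γ f := fun f => by
      show (Nat.card H0 : k)⁻¹ • (∑ y : H0, σ y * pr * σ y⁻¹) (Γ f) = _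
      rw [LinearMap.sum_apply, Finset.sum_congr rfl fun y _ =>
        show (σ y * pr * σ y⁻¹) (Γ f) = Γ f by
          obtain ⟨g, hg⟩ := hFinv y⁻¹ f
          rw [Module.End.mul_apply, Module.End.mul_apply, hg, hprF, ← hg, hσinv],
        Finset.sum_const, Finset.card_univ, ← Nat.card_eq_fintype_card, ← Nat.cast_smul_eq_nsmul k,
        smul_smul, inv_mul_cancel₀ hHp, one_smul]
    have hee : e * e = e := LinearMap.ext fun v => by
      obtain ⟨g, hg⟩ := hemem v
      rw [Module.End.mul_apply, ← hg, heid]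
    have heu : Commute (ρ u) e := by
      refine Commute.smul_right (Commute.sum_right _ _ _ fun y _ => ?_) _
      obtain ⟨h, hh, -⟩ := hconj _ ((y⁻¹ : H0) : N).2
      have h1 : σ y⁻¹ * ρ u = ρ u ^ h * σ y⁻¹ := by
        show ρ _ * ρ u = _ * ρ _
        rw [← map_pow, ← map_mul, ← map_mul, ← hh]; congr 1
        simp only [MonoidHom.coe_comp, Function.comp_apply, Subgroup.coe_subtype]; group
      have h2 : σ y * ρ u ^ h = ρ u * σ y := by
        show ρ ((y : N) : G) * _ = _ * ρ ((y : N) : G)
        rw [← map_pow, ← map_mul, ← map_mul, ← hh]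
        congr 1
        simp only [InvMemClass.coe_inv]
        group
      show ρ u * (σ y * pr * σ y⁻¹) = σ y * pr * σ y⁻¹ * ρ u
      rw [← mul_assoc, ← mul_assoc, ← h2, mul_assoc (σ y) (ρ u ^ h) pr, (hpru.pow_left h).eq]
      simp only [mul_assoc, h1]
    have hec : ∀ y ∈ N, Commute (ρ y) e := by
      intro y hy
      obtain ⟨⟨⟨x, hx⟩, z⟩, hxz⟩ := hH0.2 ⟨y, hy⟩
      have hxz' : (x : G) * ((z : N) : G) = y := congrArg Subtype.val hxz
      have hx' : (x : G) ∈ Subgroup.zpowers u := hu ▸ hx
      rw [← mem_powers_iff_mem_zpowers] at hx'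
      obtain ⟨j, hj⟩ := hx'
      rw [← hxz', map_mul]
      refine Commute.mul_left ?_ (havgc pr z)
      rw [← show u ^ j = (x : G) from hj, map_pow]
      exact heu.pow_left j
    obtain ⟨π, hπc, hππ, -, hrank, -⟩ := exists_global ρ P hP hu hord
      (pow_eq_zero_of_le (show m ≤ p - 1 by omega) hXm) hec hee
    have hS0ne : S0 ≠ ⊥ := fun h => hXm1 (LinearMap.ext fun v => by
      have hv : v - πK v ∈ S0 := by
        rw [hS0, LinearMap.mem_ker, map_sub, hπKid _ (hπKmem v), sub_self]
      rw [h, Submodule.mem_bot, sub_eq_zero] at hv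
      rw [hv]; exact hπKmem v)
    obtain ⟨s, hs, hs0⟩ := (Submodule.ne_bot_iff _).1 hS0ne
    have hinvr : ∀ g, ∀ v ∈ LinearMap.range π, ρ g v ∈ LinearMap.range π := by
      rintro g _ ⟨w, rfl⟩
      exact ⟨ρ g w, by rw [← Module.End.mul_apply, ← (hπc g).eq, Module.End.mul_apply]⟩
    rcases hirr _ hinvr with h | h
    · exfalso
      rw [h, finrank_bot] at hrank
      have he0 : LinearMap.range e = ⊥ := Submodule.finrank_eq_zero.1 hrank.symm
      have h0 : Γ (Pi.single ⟨0, by omega⟩ ⟨s, hs⟩) = 0 := by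
        have h3 : e (Γ (Pi.single ⟨0, by omega⟩ ⟨s, hs⟩)) ∈ LinearMap.range e := ⟨_, rfl⟩
        rw [he0, Submodule.mem_bot, heid] at h3
        exact h3
      rw [← map_zero Γ] at h0
      have := congrFun (hΓinj h0) ⟨0, by omega⟩
      exact hs0 (by simpa using congrArg Subtype.val this)
    · intro v
      rw [h, finrank_top] at hrank
      have he1 : LinearMap.range e = ⊤ := Submodule.eq_top_of_finrank_eq hrank.symm
      obtain ⟨w, rfl⟩ : v ∈ LinearMap.range e := he1 ▸ Submodule.mem_top
      exact LinearMap.mem_range.1 (hemem w)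
  -- the equivalence
  have hmp : m < p := by omega
  have htop1 : (top : ℕ) + 1 = m := by simp [htop]; omega
  have hTu : IsUnit (Th k m top).det := (det_Th_ne_zero hmp htop1).isUnit
  set Θ := Th k m top with hΘ
  let ΓE : (Fin m → S0) ≃ₗ[k] V := LinearEquiv.ofBijective Γ ⟨hΓinj, hΓsurj⟩
  let AE : (Fin m → S0) ≃ₗ[k] (Fin m → S0) := LinearEquiv.ofLinear (actM Θ⁻¹) (actM Θ)
    (by rw [← Module.End.mul_eq_comp, ← actM_mul, Matrix.nonsing_inv_mul _ hTu, actM_one]; rfl)
    (by rw [← Module.End.mul_eq_comp, ← actM_mul, Matrix.mul_nonsing_inv _ hTu, actM_one]; rfl)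
  let Φ : (Fin m → S0) ≃ₗ[k] V := AE.trans ΓE
  have hΦ : ∀ f, Φ f = Γ (actM Θ⁻¹ f) := fun f => rfl
  let ι : Matrix (Fin m) (Fin m) k →+* Module.End k V :=
    { toFun := fun a => Φ.conj (actM a)
      map_one' := by rw [actM_one]; exact LinearEquiv.conj_id Φ
      map_mul' := fun a b => by
        rw [actM_mul]; exact LinearEquiv.conj_comp Φ _ _
      map_zero' := by
        rw [show actM (0 : Matrix (Fin m) (Fin m) k) = (0 : Module.End k (Fin m → S0)) from
          LinearMap.ext fun f => funext fun l => by simp [actM_apply], map_zero]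
      map_add' := fun a b => by rw [actM_add, map_add] }
  have hι : ∀ a f, ι a (Φ f) = Φ (actM a f) := fun a f => by
    show Φ.conj (actM a) (Φ f) = _
    rw [LinearEquiv.conj_apply, LinearMap.comp_apply, LinearMap.comp_apply, LinearEquiv.coe_coe,
      LinearEquiv.coe_coe, LinearEquiv.symm_apply_apply]
  have hιu : ρ u = ι (Tm k m) := by
    refine LinearMap.ext fun v => ?_
    obtain ⟨f, rfl⟩ := Φ.surjective v
    rw [hι, show ρ u (Φ f) = X (Φ f) + Φ f by simp [hXdef], hΦ, ← hΓsh, hΦ, ← map_add]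
    congr 1
    have e : Θ⁻¹ * Tm k m = Sh k m * Θ⁻¹ + Θ⁻¹ := by
      have h1 : Tm k m * Θ = Θ * Sh k m + Θ := by
        rw [hΘ, ← Dl_mul_Th, Dl, sub_mul, one_mul, sub_add_cancel]
      have h2 := congrArg (fun A => Θ⁻¹ * A * Θ⁻¹) h1
      simp only [mul_add, add_mul, ← Matrix.mul_assoc, Matrix.nonsing_inv_mul _ hTu, Matrix.one_mul] at h2
      simp only [Matrix.mul_assoc, Matrix.mul_nonsing_inv _ hTu, Matrix.mul_one] at h2
      simpa [Matrix.mul_assoc] using h2
    rw [← Module.End.mul_apply (actM Θ⁻¹) (actM (Tm k m)), ← actM_mul, e, actM_add, LinearMap.add_apply,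
      actM_mul, Module.End.mul_apply]
  have hsbound : (Module.finrank k S0 : k) ≠ 0 := by
    rw [Ne, CharP.cast_eq_zero_iff k p]
    intro hd
    rcases Nat.eq_zero_or_pos (Module.finrank k S0) with h | h
    · have hV : Module.finrank k V = 0 := by
        rw [← Φ.finrank_eq, Module.finrank_pi_fintype]; simp [h]
      omega
    · have := Nat.le_of_dvd h hd
      have := Submodule.finrank_le S0
      omega
  refine ⟨m, ι, Module.finrank k S0, hm2, by omega, hsbound, fun c a => ?_, fun a => ?_, hιu, ?_⟩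
  · show Φ.conj (actM (c • a)) = c • Φ.conj (actM a)
    rw [actM_smul, map_smul]
  · show LinearMap.trace k V (Φ.conj (actM a)) = _
    rw [LinearMap.trace_conj', trace_actM]
  intro y hy
  obtain ⟨⟨⟨x, hx⟩, z⟩, hxz⟩ := hH0.2 ⟨y, hy⟩
  obtain ⟨h, hh, hh0⟩ := hconj _ (z : N).2
  refine ⟨x, (z : N), (h : k), (congrArg Subtype.val hxz).symm, hu ▸ hx, hh0, ?_⟩
  -- the element of the complement in the model
  let pw : Module.End k (Fin m → S0) :=
    LinearMap.pi fun i => ((σ z).restrict fun v hv => hS0inv z v hv).comp (LinearMap.proj i)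
  have hpw : ∀ f i, (pw f i : V) = σ z (f i : V) := fun f i => rfl
  have hpwc : ∀ a : Matrix (Fin m) (Fin m) k, pw * actM a = actM a * pw := fun a => by
    refine LinearMap.ext fun f => funext fun i => Subtype.ext ?_
    rw [Module.End.mul_apply, Module.End.mul_apply, hpw, actM_apply, actM_apply]
    simp [AddSubmonoidClass.coe_finsetSum, map_sum, hpw]
  set f1 : (Fin m → S0) →ₗ[k] V := (ρ ((z : N) : G)).comp Φ.toLinearMap with hf1
  set f2 : (Fin m → S0) →ₗ[k] V := Φ.toLinearMap.comp (actM (Dm k m (h : k)) * pw) with hf2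
  have hT1 : ∀ g, f1 (actM (Dl k m) g) = (ρ u ^ h - 1) (f1 g) := by
    intro g
    show ρ ((z : N) : G) (Φ _) = (ρ u ^ h - 1) (ρ ((z : N) : G) (Φ g))
    rw [← hι, show ι (Dl k m) = ρ u - 1 by rw [Dl, map_sub, map_one, ← hιu]]
    rw [← Module.End.mul_apply, ← Module.End.mul_apply]
    congr 1
    rw [mul_sub, sub_mul, one_mul, mul_one, ← map_pow, ← map_mul, ← map_mul, ← hh]
    congr 2; group
  have hT2 : ∀ g, f2 (actM (Dl k m) g) = (ρ u ^ h - 1) (f2 g) := by
    intro g
    show Φ ((actM (S := S0) (Dm k m (h : k)) * pw : Module.End k (Fin m → S0)) (actM (S := S0) (Dl k m) g)) = (ρ u ^ h - 1) (Φ _)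
    rw [hιu, ← map_pow, ← map_one ι, ← map_sub, hι, ← Module.End.mul_apply, ← Module.End.mul_apply,
      mul_assoc, hpwc, ← mul_assoc, ← mul_assoc, ← actM_mul, ← actM_mul]
    congr 3
    rw [Dl, mul_sub, sub_mul, mul_one, one_mul, Dm_mul_Tm]
  set w0 : S0 → Fin m → S0 := fun s => Pi.single top s with hw0
  have hΦtop : ∀ s : S0, Φ (w0 s) = (s : V) := by
    intro s
    rw [hΦ]
    have e0 : actM Θ (Pi.single (⟨0, by omega⟩ : Fin m) s) = w0 s := by
      funext l
      rw [actM_apply, Finset.sum_eq_single (⟨0, by omega⟩ : Fin m)]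
      · simp [hΘ, Th, hw0, Pi.single_apply, one_apply]
      · intro j _ hj; simp [Pi.single_eq_of_ne hj]
      · exact fun h' => absurd (Finset.mem_univ _) h'
    rw [← e0, ← Module.End.mul_apply, ← actM_mul, Matrix.nonsing_inv_mul _ hTu, actM_one,
      Module.End.one_apply, hΓ, Finset.sum_eq_single (⟨0, by omega⟩ : Fin m)]
    · simp
    · intro j _ hj; simp [Pi.single_eq_of_ne hj]
    · exact fun h' => absurd (Finset.mem_univ _) h'
  have htopeq : ∀ s, f1 (w0 s) = f2 (w0 s) := by
    intro s
    show ρ ((z : N) : G) (Φ (w0 s)) = Φ ((actM (S := S0) (Dm k m (h : k)) * pw : Module.End k (Fin m → S0)) (w0 s))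
    rw [hΦtop, Module.End.mul_apply]
    have e1 : pw (w0 s) = w0 ⟨σ z s, hS0inv z _ s.2⟩ := funext fun i => Subtype.ext (by
      rw [hpw]; rcases eq_or_ne i top with rfl | hi
      · simp [hw0]
      · simp [hw0, Pi.single_eq_of_ne hi])
    have e2 : ∀ s', actM (Dm k m (h : k)) (w0 s') = w0 s' := fun s' => funext fun l => by
      rw [actM_apply, Finset.sum_eq_single l]
      · rcases eq_or_ne l top with rfl | hl
        · simp [Dm, hw0, htop]
        · simp [hw0, Pi.single_eq_of_ne hl]
      · intro j _ hj; simp [Dm, diagonal_apply_ne _ hj.symm]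
      · exact fun h' => absurd (Finset.mem_univ _) h'
    rw [e1, e2, hΦtop]
    rfl
  have hall : f1 = f2 := by
    refine LinearMap.ext fun f => ?_
    have hf : f = ∑ i : Fin m, actM (Dl k m ^ (i : ℕ)) (w0 (actM Θ⁻¹ f i)) := by
      funext l
      conv_lhs => rw [← Module.End.one_apply (R := k) f, ← actM_one (k := k), ← Matrix.mul_nonsing_inv Θ hTu, actM_mul,
        Module.End.mul_apply, actM_apply]
      rw [Finset.sum_apply]
      refine Finset.sum_congr rfl fun i _ => ?_
      generalize actM Θ⁻¹ f i = t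
      rw [actM_apply, Finset.sum_eq_single top]
      · simp [hw0, hΘ, Th]
      · intro j _ hj; simp [hw0, Pi.single_eq_of_ne hj]
      · exact fun h' => absurd (Finset.mem_univ _) h'
    rw [hf, map_sum, map_sum]
    refine Finset.sum_congr rfl fun i _ => ?_
    generalize actM Θ⁻¹ f i = s
    induction (i : ℕ) with
    | zero => rw [pow_zero, actM_one]; exact htopeq s
    | succ n ih =>
      rw [pow_succ', actM_mul, Module.End.mul_apply, hT1, hT2, ih]
  have hz : ρ ((z : N) : G) = ι (Dm k m (h : k)) * Φ.conj pw := by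
    refine LinearMap.ext fun v => ?_
    obtain ⟨f, rfl⟩ := Φ.surjective v
    have := LinearMap.congr_fun hall f
    rw [Module.End.mul_apply, LinearEquiv.conj_apply, LinearMap.comp_apply, LinearMap.comp_apply,
      LinearEquiv.coe_coe, LinearEquiv.coe_coe, LinearEquiv.symm_apply_apply, hι]
    exact this
  have hpwι : ∀ a, Φ.conj pw * ι a = ι a * Φ.conj pw := fun a => by
    show Φ.conj pw * Φ.conj (actM a) = Φ.conj (actM a) * Φ.conj pw
    rw [Module.End.mul_eq_comp, Module.End.mul_eq_comp, ← LinearEquiv.conj_comp, ← LinearEquiv.conj_comp,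
      ← Module.End.mul_eq_comp, ← Module.End.mul_eq_comp, hpwc]
  have hιs : ∀ (c : k) a, ι (c • a) = c • ι a := fun c a => by
    show Φ.conj (actM (c • a)) = c • Φ.conj (actM a)
    rw [actM_smul, map_smul]
  refine ⟨?_, ?_, ?_⟩
  · rw [hz, mul_assoc, hpwι, ← mul_assoc, ← map_mul, Dm_mul_Em, hιs, map_mul, smul_mul_assoc, mul_assoc]
  · rw [hz, mul_assoc, hpwι, ← mul_assoc, ← map_mul, Dm_mul_Hm, map_mul, mul_assoc]
  · rw [hz, ← mul_assoc, ← map_mul, Fm_mul_Dm, hιs, smul_mul_assoc, map_mul, mul_assoc, mul_assoc, hpwι]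

end Cfsg.Agent.SL2Mod
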