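import Cfsg.Agent.MaxSub.Dickson.Classify
import Cfsg.Agent.MaxSub.Dickson.Maximal
import Cfsg.Agent.Linear.SmallIso
import Cfsg.Agent.Linear.Orders

/-!
# Finite subgroups of `PGL(2)` generated by elements of order `p`, with `p` dividing the order once
-/

set_option linter.style.haveILetI false
set_option linter.unusedSectionVars false
set_option autoImplicit false

noncomputable section

namespace Cfsg.Agent.SL2Mod

open Matrix OnePoint Cfsg.Agent.MaxSub.Dickson
open scoped MatrixGroups OnePoint Classical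

universe u

variable {K : Type u} [Field K] {p : ℕ} [hp : Fact p.Prime] [CharP K p]

theorem commute_of_fixed [DecidableEq K] {a : OnePoint K} {g h : PGL(2, K)} (hg : g • a = a)
    (hh : h • a = a) (hgp : g ^ p = 1) (hhp : h ^ p = 1) : g * h = h * g := by
  obtain ⟨c, hc⟩ := exists_move a
  have key : ∀ x : PGL(2, K), x • a = a → x ^ p = 1 → ∃ v : K, c⁻¹ * x * c = aff 1 v := by
    intro x hx hxp
    obtain ⟨u, v, huv⟩ := exists_aff (g := c⁻¹ * x * c)
      (by rw [mul_smul, mul_smul, hc, hx, inv_smul_eq_iff, hc])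
    have h1 : (c⁻¹ * x * c) ^ p = 1 := by
      have h2 := conj_pow (a := c⁻¹) (b := x) (i := p)
      rw [inv_inv, hxp, mul_one, inv_mul_cancel] at h2
      exact h2
    rw [huv, aff_pow_char_eq_one_iff] at h1
    exact ⟨v, by rw [huv, h1]⟩
  obtain ⟨v, hv⟩ := key g hg hgp
  obtain ⟨w, hw⟩ := key h hh hhp
  have e : c⁻¹ * (g * h) * c = c⁻¹ * (h * g) * c :=
    calc c⁻¹ * (g * h) * c = (c⁻¹ * g * c) * (c⁻¹ * h * c) := by group
      _ = (c⁻¹ * h * c) * (c⁻¹ * g * c) := by rw [hv, hw, aff_mul, aff_mul]; simp [add_comm]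
      _ = _ := by group
  exact mul_left_cancel (mul_right_cancel e)

theorem range_iso_psl {F₀ : Subfield K} [Finite F₀] (hF : Nat.card F₀ = p) :
    Nonempty ((subPSL F₀).range ≃* ProjectiveSpecialLinearGroup (Fin 2) (ZMod p)) := by
  letI := Fintype.ofFinite F₀
  obtain ⟨e⟩ : Nonempty (ZMod p ≃+* F₀) :=
    ⟨FiniteField.ringEquivOfCardEq (by rw [ZMod.card, ← Nat.card_eq_fintype_card, hF])⟩
  obtain ⟨f⟩ := Linear.psl_congr e (Fin 2)
  exact ⟨(MonoidHom.ofInjective (subPSL_injective F₀)).symm.trans f.symm⟩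

theorem image_classify [IsAlgClosed K] (hp5 : 5 ≤ p) (L : Subgroup PGL(2, K)) [Finite L]
    (hgen : Subgroup.closure {g : L | g ^ p = 1} = ⊤) (hdvd : p ∣ Nat.card L)
    (hsq : ¬ p ^ 2 ∣ Nat.card L) (hnc : ¬ ∀ a b : L, a * b = b * a) :
    Nonempty (L ≃* ProjectiveSpecialLinearGroup (Fin 2) (ZMod p)) := by
  classical
  have hP : p.Prime := hp.out
  rcases classify (p := p) L with ⟨-, h⟩ | ⟨a, b, n, -, -, hn, -, -, -, hc⟩ | ⟨⟨a, ha⟩, -⟩ |
    ⟨-, hc, -⟩ | ⟨-, hc, -⟩ | ⟨-, hc, ⟨iso⟩⟩ | ⟨F₀, h, hfin, h4, hor, -⟩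
  · exact absurd hdvd h
  · rw [hc] at hdvd
    rcases hP.dvd_mul.1 hdvd with h | h
    · have := Nat.le_of_dvd two_pos h; omega
    · exact absurd h hn
  · refine absurd (fun x y => ?_) hnc
    have hcl : ∀ z : L, z ∈ Subgroup.closure {g : L | g ^ p = 1} := fun z => hgen ▸ Subgroup.mem_top z
    have hkey : ∀ x ∈ {g : L | g ^ p = 1}, ∀ y ∈ {g : L | g ^ p = 1}, x * y = y * x := by
      intro x hx y hy
      exact Subtype.ext (commute_of_fixed (ha _ x.2) (ha _ y.2)
        (by rw [← Subgroup.coe_pow, show x ^ p = 1 from hx]; rfl)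
        (by rw [← Subgroup.coe_pow, show y ^ p = 1 from hy]; rfl))
    haveI := Subgroup.isMulCommutative_closure hkey
    exact congrArg Subtype.val (IsMulCommutative.is_comm.comm
      (⟨x, hcl x⟩ : Subgroup.closure {g : L | g ^ p = 1}) ⟨y, hcl y⟩)
  · rw [hc] at hdvd
    have := Nat.le_of_dvd (by norm_num) hdvd
    interval_cases p <;> first | exact absurd hdvd (by decide) | exact absurd hP (by decide)
  · rw [hc] at hdvd
    have := Nat.le_of_dvd (by norm_num) hdvd
    interval_cases p <;> first | exact absurd hdvd (by decide) | exact absurd hP (by decide)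
  · rw [hc] at hdvd
    have h5 : p = 5 := by
      have := Nat.le_of_dvd (by norm_num) hdvd
      interval_cases p <;> first | rfl | exact absurd hdvd (by decide) | exact absurd hP (by decide)
    subst h5
    obtain ⟨f⟩ := Linear.psl_two_zmod_five_iso
    exact ⟨iso.trans f.symm⟩
  haveI := hfin
  letI := Fintype.ofFinite F₀
  have hch : CharP F₀ p := (F₀.subtype.charP_iff F₀.subtype.injective p).2 inferInstance
  obtain ⟨r, -, hr⟩ := FiniteField.card F₀ p
  have hmapc : Nat.card (L.map (MulAut.conj h⁻¹).toMonoidHom) = Nat.card L :=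
    Subgroup.card_map_of_injective (MulAut.conj h⁻¹).injective
  have hdiv : Nat.card F₀ ∣ 2 * Nat.card L := by
    have hsl : Nat.card F₀ ∣ Nat.card SL(2, F₀) := by
      rw [Linear.card_SL_two, Nat.card_eq_fintype_card]
      exact (dvd_mul_right _ _).mul_right _
    rcases hor with h1 | ⟨h1, hodd⟩
    · rw [← hmapc, h1, ← Nat.card_congr (MonoidHom.ofInjective (subPGL_injective F₀)).toEquiv,
        Linear.card_PGL_eq_card_SL]
      exact hsl.mul_left 2
    · rw [← hmapc, h1, ← Nat.card_congr (MonoidHom.ofInjective (subPSL_injective F₀)).toEquiv]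
      have h2 := Linear.card_PSL_two_mul (F := F₀)
      have hg : Nat.gcd 2 (Fintype.card F₀ - 1) = 2 :=
        Nat.gcd_eq_left (by rw [Nat.card_eq_fintype_card] at hodd; obtain ⟨t, ht⟩ := hodd; omega)
      rw [hg] at h2
      rw [h2, Nat.card_eq_fintype_card]
      exact (dvd_mul_right _ _).mul_right _
  have hcp : Nat.card F₀ = p := by
    rw [Nat.card_eq_fintype_card] at hdiv h4 ⊢
    rcases Nat.lt_or_ge (r : ℕ) 2 with h1 | h1
    · rw [hr, show (r : ℕ) = 1 by have := r.pos; omega, pow_one]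
    · exfalso
      apply hsq
      have h3 : p ^ 2 ∣ 2 * Nat.card L := (pow_dvd_pow p h1).trans (hr ▸ hdiv)
      exact ((Nat.coprime_primes hP Nat.prime_two).2 (by omega)).pow_left 2 |>.dvd_of_dvd_mul_left h3
  obtain ⟨e⟩ := range_iso_psl hcp
  let eL : L ≃* L.map (MulAut.conj h⁻¹).toMonoidHom := L.equivMapOfInjective _ (MulAut.conj h⁻¹).injective
  rcases hor with h1 | ⟨h1, -⟩
  swap
  · exact ⟨eL.trans ((MulEquiv.subgroupCongr h1).trans e)⟩
  exfalso
  -- `PGL(2, p)` is not generated by elements of order `p`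
  let E : L ≃* PGL(2, F₀) :=
    eL.trans ((MulEquiv.subgroupCongr h1).trans (MonoidHom.ofInjective (subPGL_injective F₀)).symm)
  have hall : ∀ z : L, E z ∈ lsub F₀ := by
    intro z
    have hz : z ∈ Subgroup.closure {g : L | g ^ p = 1} := hgen ▸ Subgroup.mem_top z
    induction hz using Subgroup.closure_induction with
    | mem x hx =>
      obtain ⟨c, hc⟩ := hP.odd_of_ne_two (by omega)
      have hx2 : x = (x ^ (c + 1)) ^ 2 := by
        rw [← pow_mul, show (c + 1) * 2 = p + 1 by omega, pow_succ, show x ^ p = 1 from hx, one_mul]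
      rw [hx2, map_pow]
      generalize E (x ^ (c + 1)) = y
      induction y using ProjGenLinGroup.induction_on with | mk A =>
      rw [← map_pow, mk_mem_lsub_iff, pow_two, Units.val_mul, Matrix.det_mul]
      exact ⟨_, rfl⟩
    | one => rw [map_one]; exact one_mem _
    | mul x y _ _ hx hy => rw [map_mul]; exact mul_mem hx hy
    | inv x _ hx => rw [map_inv]; exact inv_mem hx
  obtain ⟨s, hs⟩ := FiniteField.exists_nonsquare (F := F₀)
    (by rw [ringChar.eq F₀ p]; omega)
  have hs0 : s ≠ 0 := fun h0 => hs (h0 ▸ ⟨0, by simp⟩)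
  let A : GL (Fin 2) F₀ := Matrix.GeneralLinearGroup.mkOfDetNeZero !![s, 0; 0, 1]
    (by simpa [Matrix.det_fin_two] using hs0)
  have hA := hall (E.symm (ProjGenLinGroup.mk A))
  rw [E.apply_symm_apply, mk_mem_lsub_iff] at hA
  exact hs (by simpa [A, GeneralLinearGroup.mkOfDetNeZero, Matrix.det_fin_two] using hA)

end Cfsg.Agent.SL2Mod
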