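import Mathlib
import Cfsg.Agent.Linear.Orders

/-!
# The special orthogonal group in dimension three maps to `PGL(2)`
-/

set_option linter.style.haveILetI false
set_option linter.unusedSectionVars false
set_option autoImplicit false

noncomputable section

namespace Cfsg.Agent.SL2Mod

open Matrix
open scoped MatrixGroups Classical

variable {k : Type*} [Field k]

/-- The form of the adjoint module. -/
def J0 (k : Type*) [Field k] : Matrix (Fin 3) (Fin 3) k := !![0, 0, 1; 0, 2, 0; 1, 0, 0]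

/-- The action on binary quadratic forms. -/
def sym2 (A : Matrix (Fin 2) (Fin 2) k) : Matrix (Fin 3) (Fin 3) k :=
  !![A 0 0 ^ 2, 2 * (A 0 0 * A 0 1), -(A 0 1 ^ 2);
     A 0 0 * A 1 0, A 0 0 * A 1 1 + A 0 1 * A 1 0, -(A 0 1 * A 1 1);
     -(A 1 0 ^ 2), -(2 * (A 1 0 * A 1 1)), A 1 1 ^ 2]

theorem sym2_mul (A B : Matrix (Fin 2) (Fin 2) k) : sym2 (A * B) = sym2 A * sym2 B := by
  ext i j
  fin_cases i <;> fin_cases j <;>
    simp [sym2, Matrix.mul_apply, Fin.sum_univ_two, Fin.sum_univ_three] <;> ring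

theorem sym2_one : sym2 (1 : Matrix (Fin 2) (Fin 2) k) = 1 := by
  ext i j
  fin_cases i <;> fin_cases j <;> simp [sym2]

theorem sym2_form (A : SL(2, k)) : (sym2 (A : Matrix (Fin 2) (Fin 2) k)).transpose * J0 k * sym2 (A : Matrix (Fin 2) (Fin 2) k) = J0 k := by
  have h := A.2
  rw [Matrix.det_fin_two] at h
  ext i j
  fin_cases i <;> fin_cases j <;>
    simp [sym2, J0, Matrix.mul_apply, Fin.sum_univ_three] <;>
    grind

/-- The homomorphism on the special linear group. -/
def sym2Hom : SL(2, k) →* Matrix (Fin 3) (Fin 3) k where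
  toFun A := sym2 (A : Matrix (Fin 2) (Fin 2) k)
  map_one' := sym2_one
  map_mul' A B := sym2_mul _ _

theorem det_sym2 (A : SL(2, k)) : (sym2Hom A).det = 1 := by
  have h := A.2
  rw [Matrix.det_fin_two] at h
  show (sym2 (A : Matrix (Fin 2) (Fin 2) k)).det = 1
  rw [Matrix.det_fin_three]
  simp [sym2]
  grind

theorem sym2_eq_one {A : SL(2, k)} (h2 : (2 : k) ≠ 0) (h : sym2Hom A = 1) :
    A ∈ Subgroup.center SL(2, k) := by
  have e : ∀ i j, sym2 (A : Matrix (Fin 2) (Fin 2) k) i j = (1 : Matrix (Fin 3) (Fin 3) k) i j :=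
    fun i j => by rw [← h]; rfl
  have h00 := e 0 0
  have h02 := e 0 2
  have h20 := e 2 0
  have hd := A.2
  rw [Matrix.det_fin_two] at hd
  simp [sym2] at h00 h02 h20
  rw [Matrix.SpecialLinearGroup.mem_center_iff]
  refine ⟨A 0 0, by rw [Fintype.card_fin, sq]; rcases h00 with h | h <;> rw [h] <;> ring, ?_⟩
  have h11 : A 1 1 = A 0 0 := by
    rw [h02, zero_mul, sub_zero] at hd
    grind
  ext i j
  fin_cases i <;> fin_cases j <;> simp [h02, h20, h11]

theorem exists_sym2_eq [IsAlgClosed k] (h2 : (2 : k) ≠ 0) {g : Matrix (Fin 3) (Fin 3) k}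
    (hg : g.transpose * J0 k * g = J0 k) (hdet : g.det = 1) : ∃ A : SL(2, k), sym2Hom A = g := by
  have eq : ∀ (h : Matrix (Fin 3) (Fin 3) k), h.transpose * J0 k * h = J0 k → ∀ i j,
      h 2 i * h 0 j + h 1 i * 2 * h 1 j + h 0 i * h 2 j = J0 k i j := by
    intro h hh i j
    conv_rhs => rw [← hh]
    simp [Matrix.mul_apply, J0, Fin.sum_univ_three, transpose_apply]
  have hform : ∀ (A : SL(2, k)) (h : Matrix (Fin 3) (Fin 3) k), h.transpose * J0 k * h = J0 k →
      (sym2Hom A * h).transpose * J0 k * (sym2Hom A * h) = J0 k := by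
    intro A h hh
    calc _ = h.transpose * ((sym2Hom A).transpose * J0 k * sym2Hom A) * h := by
          rw [transpose_mul]; simp only [Matrix.mul_assoc]
      _ = _ := by rw [show (sym2Hom A).transpose * J0 k * sym2Hom A = J0 k from sym2_form A, hh]
  -- the first column
  obtain ⟨A1, hA1⟩ : ∃ A : SL(2, k), ∀ i, sym2Hom A i 0 = g i 0 := by
    have h00 := eq g hg 0 0
    simp [J0] at h00
    rcases eq_or_ne (g 0 0) 0 with ha | ha
    · have hb : g 1 0 = 0 := by
        rw [ha] at h00; simp [h2] at h00; exact h00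
      obtain ⟨c, hc⟩ := IsAlgClosed.exists_pow_nat_eq (-(g 2 0)) (n := 2) (by norm_num)
      have hc0 : c ≠ 0 := fun hc0 => by
        have hz : g 2 0 = 0 := by rw [hc0] at hc; simpa using hc.symm
        have := Matrix.det_eq_zero_of_column_eq_zero (A := g) 0 fun i => by fin_cases i <;> assumption
        rw [hdet] at this; exact one_ne_zero this
      refine ⟨⟨!![0, -c⁻¹; c, 0], by simp [Matrix.det_fin_two, inv_mul_cancel₀ hc0]⟩, fun i => ?_⟩
      fin_cases i <;> simp [sym2Hom, sym2, ha, hb, hc]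
    · obtain ⟨a, ha'⟩ := IsAlgClosed.exists_pow_nat_eq (g 0 0) (n := 2) (by norm_num)
      have ha0 : a ≠ 0 := fun h => ha (by rw [← ha', h]; simp)
      refine ⟨⟨!![a, 0; g 1 0 / a, a⁻¹], by simp [Matrix.det_fin_two, mul_inv_cancel₀ ha0]⟩, fun i => ?_⟩
      fin_cases i
      · simp [sym2Hom, sym2, ha']
      · simp [sym2Hom, sym2, mul_div_cancel₀ _ ha0]
      · simp [sym2Hom, sym2]
        rw [div_pow, ha']
        field_simp
        grind
  set g1 := sym2Hom A1⁻¹ * g with hg1
  have hg1f : g1.transpose * J0 k * g1 = J0 k := hform _ _ hg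
  have hg1d : g1.det = 1 := by rw [hg1, det_mul, det_sym2, hdet, one_mul]
  have hcol : ∀ i, g1 i 0 = (1 : Matrix (Fin 3) (Fin 3) k) i 0 := by
    intro i
    rw [← map_one (sym2Hom (k := k)), ← inv_mul_cancel A1, map_mul, hg1, Matrix.mul_apply, Matrix.mul_apply]
    simp only [hA1]
  set b := g1 1 2
  set A2 : SL(2, k) := ⟨!![1, -b; 0, 1], by simp [Matrix.det_fin_two]⟩ with hA2
  set A2' : SL(2, k) := ⟨!![1, b; 0, 1], by simp [Matrix.det_fin_two]⟩ with hA2'
  set g2 := sym2Hom A2' * g1 with hg2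
  have hg2f : g2.transpose * J0 k * g2 = J0 k := hform _ _ hg1f
  have hg2d : g2.det = 1 := by rw [hg2, det_mul, det_sym2, hg1d, one_mul]
  have h0 := hcol 0
  have h1 := hcol 1
  have h2c := hcol 2
  simp at h0 h1 h2c
  have q02 := eq g1 hg1f 0 2
  have q22 := eq g1 hg1f 2 2
  simp [J0, h0, h1, h2c] at q02 q22
  have e00 : g2 0 0 = 1 := by simp [hg2, hA2', sym2Hom, sym2, Matrix.mul_apply, Matrix.vecMul, dotProduct, Fin.sum_univ_three, h0, h1, h2c]
  have e10 : g2 1 0 = 0 := by simp [hg2, hA2', sym2Hom, sym2, Matrix.mul_apply, Matrix.vecMul, dotProduct, Fin.sum_univ_three, h0, h1, h2c]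
  have e20 : g2 2 0 = 0 := by simp [hg2, hA2', sym2Hom, sym2, Matrix.mul_apply, Matrix.vecMul, dotProduct, Fin.sum_univ_three, h0, h1, h2c]
  have e02 : g2 0 2 = 0 := by
    simp [hg2, hA2', sym2Hom, sym2, Matrix.mul_apply, Matrix.vecMul, dotProduct, Fin.sum_univ_three, q02]
    grind
  have e12 : g2 1 2 = 0 := by simp [hg2, hA2', sym2Hom, sym2, Matrix.mul_apply, Matrix.vecMul, dotProduct, Fin.sum_univ_three, q02, b]
  have e22 : g2 2 2 = 1 := by simp [hg2, hA2', sym2Hom, sym2, Matrix.mul_apply, Matrix.vecMul, dotProduct, Fin.sum_univ_three, q02]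
  have q01 := eq g2 hg2f 0 1
  have q21 := eq g2 hg2f 2 1
  simp [J0, e00, e10, e20, e02, e12, e22] at q01 q21
  have e11 : g2 1 1 = 1 := by
    have h := hg2d
    rw [Matrix.det_fin_three, e00, e10, e20, e02, e12, e22, q01, q21] at h
    simpa using h
  have hg2one : g2 = 1 := by
    ext i j
    fin_cases i <;> fin_cases j <;> simp [e00, e10, e20, e02, e12, e22, e11, q01, q21]
  refine ⟨A1 * A2'⁻¹, ?_⟩
  calc sym2Hom (A1 * A2'⁻¹) = sym2Hom (A1 * A2'⁻¹) * g2 := by rw [hg2one, mul_one]
    _ = sym2Hom (A1 * A2'⁻¹ * (A2' * A1⁻¹)) * g := by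
      rw [hg2, hg1, map_mul sym2Hom (A1 * A2'⁻¹), map_mul sym2Hom A2']; simp only [Matrix.mul_assoc]
    _ = g := by rw [show A1 * A2'⁻¹ * (A2' * A1⁻¹) = 1 by group, map_one, Matrix.one_mul]

theorem exists_congr [IsAlgClosed k] (h2 : (2 : k) ≠ 0) {J : Matrix (Fin 3) (Fin 3) k}
    (hJ : J.transpose = J) (hd : J.det ≠ 0) :
    ∃ Q : Matrix (Fin 3) (Fin 3) k, IsUnit Q.det ∧ Q.transpose * J * Q = 1 := by
  haveI : Invertible (2 : k) := invertibleOfNonzero h2
  have hs : (Matrix.toBilin' J).IsSymm :=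
    (Matrix.isSymm_toBilin'_iff_isSymm).2 hJ
  obtain ⟨v, hv⟩ := LinearMap.BilinForm.exists_orthogonal_basis (B := Matrix.toBilin' J) ⟨fun x y => by simpa using hs.eq x y⟩
  let w : Module.Basis (Fin 3) k (Fin 3 → k) := v.reindex (finCongr (by simp))
  let R : Matrix (Fin 3) (Fin 3) k := Matrix.of fun i j => w j i
  have hR : IsUnit R.det := by
    have : R = (Pi.basisFun k (Fin 3)).toMatrix w := by
      ext i j; simp [R, Module.Basis.toMatrix_apply]
    rw [this]
    haveI := (Pi.basisFun k (Fin 3)).invertibleToMatrix w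
    exact Matrix.isUnit_det_of_invertible _
  have hRJ : ∀ i j, (R.transpose * J * R) i j = Matrix.toBilin' J (w i) (w j) := by
    intro i j
    rw [Matrix.toBilin'_apply', Matrix.mul_assoc, Matrix.mul_apply]
    rfl
  have hoff : ∀ i j, i ≠ j → (R.transpose * J * R) i j = 0 := by
    intro i j hij
    rw [hRJ]
    simp only [w, Module.Basis.reindex_apply]
    exact hv (fun h => hij ((finCongr _).symm.injective h))
  have hdiag : R.transpose * J * R = diagonal fun i => (R.transpose * J * R) i i := by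
    ext i j
    rcases eq_or_ne i j with rfl | hij
    · simp
    · rw [hoff i j hij, diagonal_apply_ne _ hij]
  choose c hc using fun i => IsAlgClosed.exists_pow_nat_eq ((R.transpose * J * R) i i) (n := 2) (by norm_num)
  have hd0 : ∀ i, (R.transpose * J * R) i i ≠ 0 := by
    have h : (R.transpose * J * R).det ≠ 0 := by
      rw [det_mul, det_mul, det_transpose]
      exact mul_ne_zero (mul_ne_zero hR.ne_zero hd) hR.ne_zero
    rw [hdiag, det_diagonal, Finset.prod_ne_zero_iff] at h
    exact fun i => h i (Finset.mem_univ _)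
  have hc0 : ∀ i, c i ≠ 0 := fun i h => hd0 i (by rw [← hc i, h]; simp)
  refine ⟨R * diagonal fun i => (c i)⁻¹, ?_, ?_⟩
  · rw [det_mul, det_diagonal]
    exact hR.mul (isUnit_iff_ne_zero.2 (Finset.prod_ne_zero_iff.2 fun i _ => inv_ne_zero (hc0 i)))
  · rw [transpose_mul, diagonal_transpose]
    calc _ = diagonal (fun i => (c i)⁻¹) * (R.transpose * J * R) * diagonal (fun i => (c i)⁻¹) := by
          simp only [Matrix.mul_assoc]
      _ = 1 := by
          rw [hdiag, diagonal_mul_diagonal, diagonal_mul_diagonal]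
          rw [← diagonal_one]
          congr 1
          funext i
          rw [← hc i]
          field_simp [hc0 i]

variable {G : Type*} [Group G] [Finite G] {p : ℕ} [Fact p.Prime] [CharP k p]

/-- A three-dimensional orthogonal representation of a group generated by elements of order `p`
gives a homomorphism to `PGL(2)`. -/
theorem exists_toPGL [IsAlgClosed k] (h2 : (2 : k) ≠ 0)
    (hgen : Subgroup.closure {g : G | g ^ p = 1} = ⊤) (f : G →* Matrix (Fin 3) (Fin 3) k)
    {J : Matrix (Fin 3) (Fin 3) k} (hJ : J.transpose = J) (hd : J.det ≠ 0)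
    (hf : ∀ g, (f g).transpose * J * f g = J) {u : G} (hu : f u ≠ 1) :
    ∃ φ : G →* PGL(2, k), φ u ≠ 1 := by
  have hJ0t : (J0 k).transpose = J0 k := by
    ext i j; fin_cases i <;> fin_cases j <;> simp [J0]
  have hJ0d : (J0 k).det ≠ 0 := by simp [J0, Matrix.det_fin_three, h2]
  obtain ⟨Q, hQ, hQJ⟩ := exists_congr h2 hJ hd
  obtain ⟨Q0, hQ0, hQ0J⟩ := exists_congr h2 hJ0t hJ0d
  obtain ⟨S, hS⟩ : ∃ S, S = Q * Q0⁻¹ := ⟨_, rfl⟩
  have hSd : IsUnit S.det := by
    rw [hS, det_mul, Matrix.det_nonsing_inv]; exact hQ.mul (IsUnit.ringInverse hQ0)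
  have hSJ : S.transpose * J * S = J0 k := by
    rw [hS, transpose_mul]
    calc _ = (Q0⁻¹).transpose * (Q.transpose * J * Q) * Q0⁻¹ := by simp only [Matrix.mul_assoc]
      _ = (Q0⁻¹).transpose * (Q0.transpose * J0 k * Q0) * Q0⁻¹ := by rw [hQJ, hQ0J]
      _ = (Q0 * Q0⁻¹).transpose * J0 k * (Q0 * Q0⁻¹) := by rw [transpose_mul]; simp only [Matrix.mul_assoc]
      _ = _ := by rw [mul_nonsing_inv _ hQ0]; simp
  let c : G →* Matrix (Fin 3) (Fin 3) k :=
    { toFun := fun g => S⁻¹ * f g * S
      map_one' := by rw [map_one, mul_one, nonsing_inv_mul _ hSd]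
      map_mul' := fun a b => by
        rw [map_mul]
        calc S⁻¹ * (f a * f b) * S = S⁻¹ * f a * (S * S⁻¹) * (f b * S) := by
              rw [mul_nonsing_inv _ hSd, mul_one]; simp only [Matrix.mul_assoc]
          _ = _ := by simp only [Matrix.mul_assoc] }
  have hcf : ∀ g, (c g).transpose * J0 k * c g = J0 k := by
    intro g
    show (S⁻¹ * f g * S).transpose * J0 k * (S⁻¹ * f g * S) = J0 k
    calc _ = (S * (S⁻¹ * f g * S)).transpose * J * (S * (S⁻¹ * f g * S)) := by
          rw [← hSJ]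
          simp only [transpose_mul, Matrix.mul_assoc]
      _ = _ := by
          rw [show S * (S⁻¹ * f g * S) = f g * S by
            rw [← Matrix.mul_assoc, ← Matrix.mul_assoc, mul_nonsing_inv _ hSd, Matrix.one_mul],
            transpose_mul]
          calc _ = S.transpose * ((f g).transpose * J * f g) * S := by simp only [Matrix.mul_assoc]
            _ = _ := by rw [hf, hSJ]
  have hcd : ∀ g, (c g).det = 1 := by
    have : ∀ g ∈ ({g : G | g ^ p = 1}), (c g).det = 1 := by
      intro g hg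
      have h1 : (c g).det ^ p = 1 ^ p := by
        rw [one_pow, ← det_pow, ← map_pow, show g ^ p = 1 from hg, map_one, det_one]
      exact frobenius_inj k p h1
    intro g
    have hg : g ∈ Subgroup.closure {g : G | g ^ p = 1} := hgen ▸ Subgroup.mem_top g
    induction hg using Subgroup.closure_induction with
    | mem x hx => exact this x hx
    | one => rw [map_one, det_one]
    | mul x y _ _ hx hy => rw [map_mul, det_mul, hx, hy, one_mul]
    | inv x _ hx =>
      have := congrArg Matrix.det (c.map_mul x⁻¹ x)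
      rw [inv_mul_cancel, map_one, det_one, det_mul, hx, mul_one] at this
      exact this.symm
  choose A hA using fun g => exists_sym2_eq h2 (hcf g) (hcd g)
  have hker : ∀ a b : SL(2, k), sym2Hom a = sym2Hom b →
      Matrix.SpecialLinearGroup.toPGL a = Matrix.SpecialLinearGroup.toPGL b := by
    intro a b hab
    have h := sym2_eq_one h2 (A := a * b⁻¹) (by rw [map_mul, hab, ← map_mul, mul_inv_cancel, map_one])
    rw [← Matrix.SpecialLinearGroup.toPGL_ker, MonoidHom.mem_ker, map_mul, map_inv, mul_inv_eq_one] at h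
    exact h
  refine ⟨{ toFun := fun g => Matrix.SpecialLinearGroup.toPGL (A g)
            map_one' := ?_, map_mul' := fun a b => ?_ }, fun h => hu ?_⟩
  · rw [← map_one (Matrix.SpecialLinearGroup.toPGL (n := Fin 2) (R := k))]
    exact hker _ _ (by rw [hA, map_one, map_one])
  · rw [← map_mul]
    exact hker _ _ (by rw [hA, map_mul, map_mul, hA, hA])
  · have h1 : A u ∈ (Matrix.SpecialLinearGroup.toPGL (n := Fin 2) (R := k)).ker := h
    rw [Matrix.SpecialLinearGroup.toPGL_ker] at h1
    obtain ⟨r, hr, hr'⟩ := Matrix.SpecialLinearGroup.mem_center_iff.1 h1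
    have hs : sym2Hom (A u) = 1 := by
      show sym2 (A u : Matrix (Fin 2) (Fin 2) k) = 1
      rw [← hr']
      rw [Fintype.card_fin] at hr
      ext i j
      fin_cases i <;> fin_cases j <;> simp [sym2, ← sq, hr]
    rw [hA] at hs
    have h3 := congrArg (fun T => S * T * S⁻¹) (show S⁻¹ * f u * S = 1 from hs)
    simp only [Matrix.mul_one, mul_nonsing_inv _ hSd] at h3
    rw [← Matrix.mul_assoc, ← Matrix.mul_assoc, mul_nonsing_inv _ hSd, Matrix.one_mul, Matrix.mul_assoc,
      mul_nonsing_inv _ hSd, Matrix.mul_one] at h3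
    exact h3

end Cfsg.Agent.SL2Mod
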