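import Cfsg.Agent.SL2Mod.Adjoint
import Cfsg.Agent.SL2Mod.SO3
import Cfsg.Agent.SL2Mod.Image
import Cfsg.Agent.Char8TI.SmallDegree

/-!
# From a complex representation of small degree to `PGL(2)` in characteristic `p`
-/

set_option linter.style.haveILetI false
set_option linter.unusedSectionVars false
set_option autoImplicit false

noncomputable section

namespace Cfsg.Agent.SL2Mod

open scoped Classical MatrixGroups
open Matrix Module

universe u v

variable {k : Type u} [Field k] {G : Type v} [Group G] [Fintype G] {p : ℕ} [Fact p.Prime] [CharP k p]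

/-- Restriction of an operator to an invariant subspace commutes with powers of `g - 1`. -/
theorem unipotent_of_sub_quot {V : Type u} [AddCommGroup V] [Module k V] {T : Module.End k V}
    (U : Submodule k V) (hU : ∀ v ∈ U, T v ∈ U) {a b : ℕ}
    (ha : ((T.restrict hU) - 1) ^ a = 0)
    (hb : ((U.mapQ U T fun v hv => hU v hv) - 1) ^ b = 0) : (T - 1) ^ (a + b) = 0 := by
  have h1 : ∀ (j : ℕ) (v : U), (((((T.restrict hU) - 1 : Module.End k U) ^ j) v : U) : V) = (((T - 1 : Module.End k V) ^ j) (v : V)) := by
    intro j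
    induction j with
    | zero => intro v; rfl
    | succ j ih => intro v; rw [pow_succ', pow_succ', Module.End.mul_apply, Module.End.mul_apply, ← ih]; rfl
  have h2 : ∀ (j : ℕ) (v : V), (((U.mapQ U T fun v hv => hU v hv) - 1 : Module.End k (V ⧸ U)) ^ j) (U.mkQ v) = U.mkQ (((T - 1 : Module.End k V) ^ j) v) := by
    intro j
    induction j with
    | zero => intro v; rfl
    | succ j ih =>
      intro v
      rw [pow_succ', pow_succ', Module.End.mul_apply, Module.End.mul_apply, ih]
      simp
  refine LinearMap.ext fun v => ?_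
  rw [pow_add, Module.End.mul_apply]
  have hv : ((T - 1) ^ b) v ∈ U := by
    rw [← U.ker_mkQ, LinearMap.mem_ker, ← h2, hb, LinearMap.zero_apply]
  have := h1 a ⟨_, hv⟩
  rw [ha] at this
  exact this.symm

/-- Either some irreducible factor sees `u`, or the group acts unipotently. -/
theorem exists_factor (u : G) (hconj : ∀ g : G, g ^ p = 1 → ∃ (x : G) (i : ℕ), g = x * u ^ i * x⁻¹)
    (hgen : Subgroup.closure {g : G | g ^ p = 1} = ⊤) :
    ∀ (d : ℕ) {V : Type u} [AddCommGroup V] [Module k V] [FiniteDimensional k V]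
      (ρ : Representation k G V), Module.finrank k V = d →
      (∃ (W : Type u) (_ : AddCommGroup W) (_ : Module k W) (_ : FiniteDimensional k W)
        (σ : Representation k G W), Module.finrank k W ≤ d ∧ σ u ≠ 1 ∧
          ∀ U : Submodule k W, (∀ g, ∀ v ∈ U, σ g v ∈ U) → U = ⊥ ∨ U = ⊤) ∨
      ∀ g : G, (ρ g - 1) ^ d = 0 := by
  intro d
  induction d using Nat.strong_induction_on with
  | _ d ih =>
  intro V _ _ _ ρ hd
  by_cases hirr : ∀ U : Submodule k V, (∀ g, ∀ v ∈ U, ρ g v ∈ U) → U = ⊥ ∨ U = ⊤
  · by_cases hu : ρ u = 1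
    · right
      intro g
      rcases Nat.eq_zero_or_pos d with h0 | hpos
      · haveI : Subsingleton V := Module.finrank_zero_iff.1 (hd.trans h0)
        exact LinearMap.ext fun v => Subsingleton.elim _ _
      have h1 : ρ g = 1 := by
        have hg : g ∈ Subgroup.closure {g : G | g ^ p = 1} := hgen ▸ Subgroup.mem_top g
        induction hg using Subgroup.closure_induction with
        | mem x hx =>
          obtain ⟨y, i, rfl⟩ := hconj x hx
          rw [map_mul, map_mul, map_pow, hu, one_pow, mul_one, ← map_mul, mul_inv_cancel, map_one]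
        | one => exact map_one _
        | mul x y _ _ hx hy => rw [map_mul, hx, hy, one_mul]
        | inv x _ hx =>
          have := congrArg ρ (inv_mul_cancel x)
          rw [map_mul, hx, mul_one, map_one] at this
          exact this
      rw [h1, sub_self, zero_pow hpos.ne']
    · exact .inl ⟨V, inferInstance, inferInstance, inferInstance, ρ, hd.le, hu, hirr⟩
  push Not at hirr
  obtain ⟨U, hU, hUb, hUt⟩ := hirr
  have h1 : Module.finrank k U < d := hd ▸ Submodule.finrank_lt hUt
  have h3 := U.finrank_quotient_add_finrank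
  have hUpos : 0 < Module.finrank k U :=
    Nat.pos_of_ne_zero fun h => hUb (Submodule.finrank_eq_zero.1 h)
  have h2 : Module.finrank k (V ⧸ U) < d := by omega
  let σ1 : Representation k G U :=
    { toFun := fun g => (ρ g).restrict (hU g)
      map_one' := LinearMap.ext fun w => Subtype.ext (by simp)
      map_mul' := fun a b => LinearMap.ext fun w => Subtype.ext (by simp [Module.End.mul_apply]) }
  let σ2 : Representation k G (V ⧸ U) :=
    { toFun := fun g => U.mapQ U (ρ g) fun v hv => hU g v hv
      map_one' := Submodule.linearMap_qext _ (LinearMap.ext fun w => by simp)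
      map_mul' := fun a b => Submodule.linearMap_qext _ (LinearMap.ext fun w => by simp) }
  rcases ih _ h1 σ1 rfl with ⟨W, i1, i2, i3, σ, hW, hh⟩ | hu1
  · exact .inl ⟨W, i1, i2, i3, σ, by omega, hh⟩
  rcases ih _ h2 σ2 rfl with ⟨W, i1, i2, i3, σ, hW, hh⟩ | hu2
  · exact .inl ⟨W, i1, i2, i3, σ, by omega, hh⟩
  right
  intro g
  rw [show d = Module.finrank k U + Module.finrank k (V ⧸ U) by omega]
  exact unipotent_of_sub_quot U (fun v hv => hU g v hv) (hu1 g) (hu2 g)

/-- An integral matrix of order prime to `p` congruent to `1` is `1`. -/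
theorem eq_one_of_residue {O : ValuationSubring ℂ} [CharP (IsLocalRing.ResidueField O) p] {n : ℕ}
    {r : ℕ} (hr : r.Prime) (hrp : r ≠ p) {A : Matrix (Fin n) (Fin n) O} (hA : A ^ r = 1)
    (h1 : A.map (IsLocalRing.residue O) = 1) : A = 1 := by
  set S := ∑ i ∈ Finset.range r, A ^ i with hS
  have h2 : S * (A - 1) = 0 := by rw [hS, geom_sum_mul, hA, sub_self]
  have hu : IsUnit S.det := by
    rw [← IsLocalRing.residue_ne_zero_iff_isUnit, RingHom.map_det, RingHom.mapMatrix_apply]
    have e : S.map (IsLocalRing.residue O) = (r : IsLocalRing.ResidueField O) • (1 : Matrix (Fin n) (Fin n) (IsLocalRing.ResidueField O)) := by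
      rw [← RingHom.mapMatrix_apply, hS, map_sum]
      simp only [map_pow, RingHom.mapMatrix_apply, h1, one_pow, Finset.sum_const, Finset.card_range]
      rw [Nat.cast_smul_eq_nsmul]
    rw [e, Matrix.det_smul, Matrix.det_one, mul_one]
    refine pow_ne_zero _ fun h => hrp ?_
    rw [CharP.cast_eq_zero_iff _ p] at h
    exact ((Nat.prime_dvd_prime_iff_eq (Fact.out : p.Prime) hr).1 h).symm
  rw [← sub_eq_zero]
  calc A - 1 = S⁻¹ * S * (A - 1) := by rw [Matrix.nonsing_inv_mul _ hu, Matrix.one_mul]
    _ = 0 := by rw [Matrix.mul_assoc, h2, Matrix.mul_zero]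

/-- A faithful complex representation of degree below `p / 2` gives a homomorphism to `PGL(2)`
non-trivial on `u`, unless the group is a `p`-group. -/
theorem exists_pgl {G : Type v} [Group G] [Fintype G] (hp2 : p ≠ 2) (P : Sylow p G) (hP : Nat.card P = p)
    {u : G} (hu : (P : Subgroup G) = Subgroup.zpowers u) (hord : orderOf u = p)
    (hgen : Subgroup.closure {g : G | g ^ p = 1} = ⊤) {n : ℕ} (hn : 2 * n < p)
    (ρ : Representation ℂ G (Fin n → ℂ)) (hfaith : ∀ g, ρ g = 1 → g = 1) (hnp : ¬ IsPGroup p G) :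
    ∃ (K : Type) (_ : Field K) (_ : IsAlgClosed K) (_ : CharP K p) (φ : G →* PGL(2, K)), φ u ≠ 1 := by
  have hp : p.Prime := Fact.out
  have hconj : ∀ g : G, g ^ p = 1 → ∃ (x : G) (i : ℕ), g = x * u ^ i * x⁻¹ := by
    intro g hg
    have hpg : IsPGroup p (Subgroup.zpowers g) := by
      rintro ⟨x, hx⟩
      obtain ⟨z, rfl⟩ := Subgroup.mem_zpowers_iff.1 hx
      refine ⟨1, Subtype.ext ?_⟩
      simp only [pow_one, SubgroupClass.coe_pow, OneMemClass.coe_one]
      rw [← zpow_natCast, ← _root_.zpow_mul, mul_comm, _root_.zpow_mul, zpow_natCast, hg, _root_.one_zpow]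
    obtain ⟨Q, hQ⟩ := hpg.exists_le_sylow
    obtain ⟨x, hx⟩ := MulAction.exists_smul_eq G P Q
    have hgQ := hQ (Subgroup.mem_zpowers g)
    rw [← hx, Sylow.coe_subgroup_smul, Subgroup.mem_pointwise_smul_iff_inv_smul_mem, hu,
      ← mem_powers_iff_mem_zpowers] at hgQ
    obtain ⟨i, hi⟩ := hgQ
    refine ⟨x, i, ?_⟩
    rw [show u ^ i = _ from hi]
    simp [MulAut.smul_def, mul_assoc]
  obtain ⟨O, hO⟩ := Char8TI.exists_valuationSubring p hp
  obtain ⟨e, he⟩ := Char8TI.exists_integral_basis ρ O
  let k0 := IsLocalRing.ResidueField O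
  haveI : CharP k0 p := by
    rw [CharP.charP_iff_prime_eq_zero hp]
    obtain ⟨⟨a, ha⟩, ham, hap⟩ : (p : ℂ) ∈ ((↑) : O → ℂ) '' IsLocalRing.maximalIdeal O := by
      rw [O.image_maximalIdeal]; exact hO
    rw [show (p : k0) = IsLocalRing.residue O (p : O) from (map_natCast _ p).symm,
      IsLocalRing.residue_eq_zero_iff,
      show (p : O) = ⟨a, ha⟩ from Subtype.ext ((map_natCast O.subtype p).trans hap.symm)]
    exact ham
  let K := AlgebraicClosure k0
  haveI : CharP K p := charP_of_injective_algebraMap (algebraMap k0 K).injective p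
  let d := finrank ℂ (Fin n → ℂ)
  let M : G →* Matrix (Fin d) (Fin d) O :=
    { toFun := fun g => Matrix.of fun i j => ⟨e.repr (ρ g (e j)) i, he g i j⟩
      map_one' := Matrix.ext fun i j => Subtype.ext (by
        show e.repr (ρ 1 (e j)) i = _
        rw [map_one, Module.End.one_apply, e.repr_self, Matrix.one_apply, Finsupp.single_apply]
        rcases eq_or_ne i j with rfl | h
        · simp
        · rw [if_neg (Ne.symm h), if_neg h]; rfl)
      map_mul' := fun a b => Matrix.ext fun i j => Subtype.ext (by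
        show e.repr (ρ (a * b) (e j)) i = _
        rw [Matrix.mul_apply]
        simp only [Matrix.of_apply]
        push_cast
        rw [map_mul, Module.End.mul_apply]
        conv_lhs => rw [← e.sum_repr (ρ b (e j))]
        rw [map_sum, map_sum, Finsupp.finsetSum_apply]
        refine Finset.sum_congr rfl fun l _ => ?_
        rw [map_smul, map_smul, Finsupp.smul_apply, smul_eq_mul, mul_comm]) }
  let res : O →+* K := (algebraMap k0 K).comp (IsLocalRing.residue O)
  let σ : Representation K G (Fin d → K) :=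
    (Matrix.toLinAlgEquiv' : _ ≃ₐ[K] _).toAlgHom.toMonoidHom.comp ((res.mapMatrix : _ →+* _).toMonoidHom.comp M)
  have hdn : d = n := by simp [d]
  rcases exists_factor u hconj hgen d σ (by simp) with ⟨W, i1, i2, i3, τ, hW, hτu, hirr⟩ | hun
  · obtain ⟨f, J, hJ, hJd, hf, hfu⟩ := exists_adjoint τ hirr P hP hu hord hτu (by omega)
    have h2 : (2 : K) ≠ 0 := fun h => by
      have h' : ((2 : ℕ) : K) = 0 := by exact_mod_cast h
      rw [CharP.cast_eq_zero_iff K p] at h'
      exact hp2 ((Nat.prime_dvd_prime_iff_eq hp Nat.prime_two).1 h')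
    obtain ⟨φ, hφ⟩ := exists_toPGL (p := p) h2 hgen f hJ hJd hf hfu
    exact ⟨K, inferInstance, inferInstance, inferInstance, φ, hφ⟩
  exfalso
  refine hnp fun g => ?_
  by_contra hg
  obtain ⟨r, hr, hrd, hrp⟩ : ∃ r : ℕ, r.Prime ∧ r ∣ orderOf g ∧ r ≠ p := by
    by_contra hcon
    push Not at hcon
    refine hg ⟨(orderOf g).primeFactorsList.length, ?_⟩
    rw [← orderOf_dvd_iff_pow_eq_one, ← Nat.eq_prime_pow_of_unique_prime_dvd (orderOf_pos g).ne'
      fun {q} hq hd => hcon q hq hd]
  set y := g ^ (orderOf g / r) with hy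
  have hyr : orderOf y = r := orderOf_pow_orderOf_div (orderOf_pos g).ne' hrd
  haveI : CharP (Module.End K (Fin d → K)) p := by
    haveI : Nonempty (Fin d) := by
      by_contra h
      rw [not_nonempty_iff] at h
      have : y = 1 := hfaith y (e.ext fun j => h.elim j)
      rw [this, orderOf_one] at hyr
      exact hr.ne_one hyr.symm
    exact charP_of_injective_algebraMap (algebraMap K (Module.End K (Fin d → K))).injective p
  have h1 : σ y ^ p = 1 := by
    have h := pow_eq_zero_of_le (show d ≤ p by omega) (hun y)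
    rwa [sub_pow_char_of_commute p (Commute.one_right (σ y)), one_pow, sub_eq_zero] at h
  have h2 : σ y ^ r = 1 := by
    rw [← map_pow, show y ^ r = 1 from orderOf_dvd_iff_pow_eq_one.1 hyr.dvd, map_one]
  have h3 : σ y = 1 := by
    rw [← orderOf_eq_one_iff]
    exact Nat.eq_one_of_dvd_coprimes ((Nat.coprime_primes hp hr).2 (Ne.symm hrp))
      (orderOf_dvd_of_pow_eq_one h1) (orderOf_dvd_of_pow_eq_one h2)
  have h4 : (M y).map res = 1 := (Matrix.toLinAlgEquiv' (R := K)).injective (h3.trans (map_one _).symm)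
  have h5 : (M y).map (IsLocalRing.residue O) = 1 := by
    refine Matrix.map_injective (algebraMap k0 K).injective ?_
    dsimp only
    rw [Matrix.map_map, Matrix.map_one _ (map_zero _) (map_one _)]
    exact h4
  have h6 : M y = 1 := eq_one_of_residue (p := p) hr hrp
    (by rw [← map_pow, show y ^ r = 1 from orderOf_dvd_iff_pow_eq_one.1 hyr.dvd, map_one]) h5
  have h7 : y = 1 := hfaith y (e.ext fun j => e.repr.injective (Finsupp.ext fun i => by
    have := congrArg (fun A : Matrix (Fin d) (Fin d) O => ((A i j : O) : ℂ)) h6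
    rw [Module.End.one_apply, e.repr_self, Finsupp.single_apply]
    refine this.trans ?_
    rcases eq_or_ne i j with rfl | h
    · simp
    · simp [Matrix.one_apply_ne h, Ne.symm h]))
  rw [h7, orderOf_one] at hyr
  exact hr.ne_one hyr.symm

end Cfsg.Agent.SL2Mod
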