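import Cfsg.Agent.Brauer.StableHead
import Cfsg.Agent.Brauer.OrderPData

/-!
# Pushing an idempotent from the normaliser of a subgroup of order `p` to the group

If `(ρ u - 1) ^ (p - 1) = 0`, the sum of the conjugates of an idempotent commuting with the
normaliser is congruent to it modulo a nilpotent ideal, which gives an idempotent commuting with
the group, of the same rank and equal to it on the fixed vectors of `u`.
-/

set_option linter.style.haveILetI false
set_option linter.unusedSectionVars false
set_option autoImplicit false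

noncomputable section

namespace Cfsg.Agent.SL2Mod

open scoped Classical

section ring

variable {R : Type*} [Ring R]

theorem isIdempotentElem_lift {f : R} {q : ℕ} (h : (f * f - f) ^ q = 0) :
    (1 - (1 - f ^ q) ^ q) * (1 - (1 - f ^ q) ^ q) = 1 - (1 - f ^ q) ^ q := by
  set X : Polynomial ℤ := Polynomial.X
  set Q : Polynomial ℤ := (1 - (1 - X ^ q) ^ q)
  have h1 : X ^ q ∣ Q := by
    have := sub_dvd_pow_sub_pow (1 : Polynomial ℤ) (1 - X ^ q) q
    rwa [one_pow, sub_sub_cancel] at this
  have h2 : (1 - X) ^ q ∣ 1 - Q := by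
    show (1 - X) ^ q ∣ 1 - (1 - (1 - X ^ q) ^ q)
    rw [sub_sub_cancel]
    refine pow_dvd_pow_of_dvd ?_ q
    have := sub_dvd_pow_sub_pow (1 : Polynomial ℤ) X q
    rwa [one_pow] at this
  obtain ⟨c, hc⟩ : (X * X - X) ^ q ∣ Q * Q - Q := by
    have h3 : X ^ q * (1 - X) ^ q ∣ Q * (1 - Q) := mul_dvd_mul h1 h2
    rw [← mul_pow] at h3
    have e1 : X * X - X = -(X * (1 - X)) := by ring
    have e2 : Q * Q - Q = -(Q * (1 - Q)) := by ring
    rw [e1, e2, neg_pow, dvd_neg]
    exact (IsUnit.pow q isUnit_one.neg).mul_left_dvd.2 h3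
  have := congrArg (Polynomial.aeval f) hc
  simp only [map_sub, map_mul, map_pow, map_one, Polynomial.aeval_X, Q, X, h, zero_mul,
    sub_eq_zero] at this
  exact this

end ring

variable {k : Type*} [Field k] {G : Type*} [Group G] [Fintype G] {M : Type*} [AddCommGroup M]
  [Module k M] {p : ℕ} [Fact p.Prime] [CharP k p]

/-- An endomorphism commuting with `u` and killing its fixed vectors is nilpotent. -/
theorem pow_eq_zero_of_killsFixed {T X : Module.End k M} {q : ℕ} (hT : Commute X T)
    (h0 : ∀ v, X v = 0 → T v = 0) (hX : X ^ q = 0) : T ^ q = 0 := by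
  have key : ∀ j : ℕ, ∀ v, (X ^ j) v = 0 → (T ^ j) v = 0 := by
    intro j
    induction j with
    | zero => intro v hv; simpa using hv
    | succ j ih =>
      intro v hv
      rw [pow_succ, Module.End.mul_apply]
      refine ih _ ?_
      rw [← Module.End.mul_apply, (hT.pow_left j).eq, Module.End.mul_apply]
      refine h0 _ ?_
      rwa [← Module.End.mul_apply, ← pow_succ']
  ext v
  exact key q v (by rw [hX]; rfl)

variable [FiniteDimensional k M] (ρ : Representation k G M) (P : Sylow p G)

/-- The idempotent of the group. -/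
theorem exists_global (hP : Nat.card P = p) {u : G} (hu : (P : Subgroup G) = Subgroup.zpowers u)
    (hord : orderOf u = p) (hX : (ρ u - 1) ^ (p - 1) = 0) {e : Module.End k M}
    (hec : ∀ y ∈ Subgroup.normalizer ((P : Subgroup G) : Set G), Commute (ρ y) e) (he : e * e = e) :
    ∃ π : Module.End k M, (∀ g, Commute (ρ g) π) ∧ π * π = π ∧ (∀ v, ρ u v = v → π v = e v) ∧
      Module.finrank k (LinearMap.range π) = Module.finrank k (LinearMap.range e) ∧
      ∀ B : M →ₗ[k] M →ₗ[k] k, (∀ g a b, B (ρ g a) (ρ g b) = B a b) →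
        (∀ a b, B (e a) b = B a (e b)) → ∀ a b, B (π a) b = B a (π b) := by
  set N := Subgroup.normalizer ((P : Subgroup G) : Set G) with hN
  haveI : Fintype (G ⧸ N) := Fintype.ofFinite _
  let F : G ⧸ N → Module.End k M := Quotient.lift (fun g => ρ g * e * ρ g⁻¹) fun a b hab => by
    have hab' : a⁻¹ * b ∈ N := QuotientGroup.leftRel_apply.1 hab
    show ρ a * e * ρ a⁻¹ = ρ b * e * ρ b⁻¹
    have h1 := (hec _ hab').eq
    calc ρ a * e * ρ a⁻¹ = ρ a * (e * ρ (a⁻¹ * b)) * ρ b⁻¹ := by
          simp only [mul_assoc, ← map_mul, mul_inv_cancel, mul_one]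
      _ = ρ a * (ρ (a⁻¹ * b) * e) * ρ b⁻¹ := by rw [h1]
      _ = ρ b * e * ρ b⁻¹ := by
          rw [← mul_assoc, ← map_mul, mul_inv_cancel_left]
  have hF : ∀ g : G, F g = ρ g * e * ρ g⁻¹ := fun _ => rfl
  have hFsmul : ∀ (g : G) (c : G ⧸ N), F (g • c) = ρ g * F c * ρ g⁻¹ := by
    intro g c
    induction c using QuotientGroup.induction_on with
    | _ h =>
      rw [MulAction.Quotient.smul_coe, hF, hF, smul_eq_mul, mul_inv_rev, map_mul, map_mul]
      simp only [mul_assoc]
  set φ := ∑ c : G ⧸ N, F c with hφ
  have hinv : ∀ g : G, ρ g⁻¹ * ρ g = 1 := fun g => by rw [← map_mul, inv_mul_cancel, map_one]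
  have hφc : ∀ g, Commute (ρ g) φ := by
    intro g
    have h1 : φ = ρ g * φ * ρ g⁻¹ := by
      rw [hφ, Finset.mul_sum, Finset.sum_mul]
      exact (Fintype.sum_equiv (MulAction.toPerm g) _ _ fun c => (hFsmul g c).symm).symm
    show ρ g * φ = φ * ρ g
    conv_rhs => rw [h1, mul_assoc, hinv, mul_one]
  have huP : u ∈ (P : Subgroup G) := hu ▸ Subgroup.mem_zpowers u
  have hufix : ∀ v, ρ u v = v → ∀ x ∈ (P : Subgroup G), ρ x v = v := by
    intro v hv x hx
    rw [hu, ← mem_powers_iff_mem_zpowers] at hx
    obtain ⟨i, rfl⟩ := hx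
    show ρ (u ^ i) v = v
    induction i with
    | zero => simp
    | succ i ih => rw [pow_succ, map_mul, Module.End.mul_apply, hv, ih]
  have hnorm : ∀ w, ∑ x : (P : Subgroup G), ρ (x : G) w = 0 := by
    intro w
    have h := Brauer.normOp_eq (ρ := ρ) (P := (P : Subgroup G)) hP hu hord
    rw [hX] at h
    have := LinearMap.congr_fun h w
    rwa [Brauer.normOp, LinearMap.sum_apply, LinearMap.zero_apply] at this
  -- the difference kills the fixed vectors
  have hkill : ∀ v, ρ u v = v → φ v = e v := by
    intro v hv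
    let S : Type _ := {c : G ⧸ N // c ≠ ((1 : G) : G ⧸ N)}
    have hfree : ∀ (x : (P : Subgroup G)) (c : G ⧸ N), c ≠ ((1 : G) : G ⧸ N) →
        (x : G) • c = c → x = 1 := by
      intro x c
      induction c using QuotientGroup.induction_on with
      | _ g =>
        intro hg hx
        rw [MulAction.Quotient.smul_coe, smul_eq_mul, eq_comm, QuotientGroup.eq] at hx
        have hgN : g ∉ N := fun h => hg (QuotientGroup.eq.2 (by simpa using N.inv_mem h))
        exact Subtype.ext (Brauer.OrderP.free P hP hgN x.2 (by rw [← hN]; simpa [mul_assoc] using hx))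
    have hbase : ∀ x : (P : Subgroup G), (x : G) • ((1 : G) : G ⧸ N) = ((1 : G) : G ⧸ N) :=
      fun x => by
        rw [MulAction.Quotient.smul_coe, smul_eq_mul, mul_one, QuotientGroup.eq, mul_one]
        exact N.inv_mem (Subgroup.le_normalizer x.2)
    letI : MulAction (P : Subgroup G) S :=
      { smul := fun x c => ⟨(x : G) • c.1, fun h => c.2 (by
          rw [← inv_smul_smul (x : G) c.1, h]
          exact hbase x⁻¹)⟩
        one_smul := fun c => Subtype.ext (one_smul G c.1)
        mul_smul := fun x y c => Subtype.ext (mul_smul (x : G) (y : G) c.1) }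
    haveI : Fintype S := Subtype.fintype _
    let Or := MulAction.orbitRel.Quotient (P : Subgroup G) S
    haveI : Fintype Or := Fintype.ofFinite _
    let Ψ : ↥(P : Subgroup G) × Or → S := fun t => t.1 • t.2.out
    have hΨ : Function.Bijective Ψ := by
      constructor
      · rintro ⟨x, a⟩ ⟨y, b⟩ h
        have h' : x • a.out = y • b.out := h
        have hab : a = b := by
          rw [← Quotient.out_eq a, ← Quotient.out_eq b]
          refine Quotient.sound (MulAction.orbitRel_apply.2 ⟨x⁻¹ * y, ?_⟩)
          show (x⁻¹ * y) • b.out = a.out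
          rw [mul_smul, ← h', inv_smul_smul]
        subst hab
        have h1 : (y⁻¹ * x) • a.out = a.out := by rw [mul_smul, h', inv_smul_smul]
        have h2 := hfree _ _ a.out.2 (congrArg Subtype.val h1)
        rw [inv_mul_eq_one] at h2
        rw [h2]
      · intro s
        let a : Or := Quotient.mk'' s
        obtain ⟨x, hx⟩ := MulAction.orbitRel_apply.1 (Quotient.exact (Quotient.out_eq a))
        refine ⟨(x⁻¹, a), ?_⟩
        show x⁻¹ • a.out = s
        rw [← hx]
        exact inv_smul_smul x s
    have h1 : ∑ c : S, F c.1 v = 0 := by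
      rw [← Fintype.sum_bijective Ψ hΨ _ _ (fun _ => rfl), Fintype.sum_prod_type, Finset.sum_comm]
      refine Finset.sum_eq_zero fun a _ => ?_
      rw [← hnorm (F a.out.1 v)]
      refine Finset.sum_congr rfl fun x _ => ?_
      show F ((x : G) • a.out.1) v = _
      rw [hFsmul, Module.End.mul_apply, Module.End.mul_apply, hufix v hv _ (inv_mem x.2)]
    rw [hφ, LinearMap.sum_apply, Fintype.sum_eq_add_sum_subtype_ne _ ((1 : G) : G ⧸ N)]
    convert congrArg (F ((1 : G) : G ⧸ N) v + ·) h1 using 1
    · simp only [S]; congr!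
    · rw [add_zero, hF, inv_one, map_one, one_mul, mul_one]
  -- the idempotent
  have heu : Commute (ρ u) e := hec u (Subgroup.le_normalizer huP)
  set X := ρ u - 1 with hXdef
  have hXe : Commute X e := (heu.sub_left (Commute.one_left e))
  have hXφ : Commute X φ := ((hφc u).sub_left (Commute.one_left φ))
  have hXv : ∀ v, X v = 0 ↔ ρ u v = v := fun v => by
    rw [hXdef, LinearMap.sub_apply, Module.End.one_apply, sub_eq_zero]
  have hfix : ∀ v, X v = 0 → X (e v) = 0 := fun v hv => by
    rw [← Module.End.mul_apply, hXe.eq, Module.End.mul_apply, hv, map_zero]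
  set q := p - 1 with hq
  have hq0 : q ≠ 0 := by
    have := (Fact.out : p.Prime).two_le
    omega
  have hee : ∀ v, e (e v) = e v := fun v => by rw [← Module.End.mul_apply, he]
  have hδ : (φ * φ - φ) ^ q = 0 := by
    refine pow_eq_zero_of_killsFixed ((hXφ.mul_right hXφ).sub_right hXφ) (fun v hv => ?_) hX
    rw [LinearMap.sub_apply, Module.End.mul_apply, hkill v ((hXv v).1 hv),
      hkill _ ((hXv _).1 (hfix v hv)), hee, sub_self]
  set π := 1 - (1 - φ ^ q) ^ q with hπ
  have hπc : ∀ g, Commute (ρ g) π := fun g =>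
    (Commute.one_right _).sub_right (((Commute.one_right _).sub_right ((hφc g).pow_right q)).pow_right q)
  have hππ : π * π = π := isIdempotentElem_lift hδ
  have hπe : ∀ v, ρ u v = v → π v = e v := by
    intro v hv
    have hv' : X v = 0 := (hXv v).2 hv
    have hpow : ∀ i : ℕ, i ≠ 0 → ∀ w, X w = 0 → (φ ^ i) w = e w := by
      intro i hi
      induction i with
      | zero => exact absurd rfl hi
      | succ i ih =>
        intro w hw
        rw [pow_succ, Module.End.mul_apply, hkill w ((hXv w).1 hw)]
        rcases Nat.eq_zero_or_pos i with rfl | hpos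
        · simp
        · rw [ih hpos.ne' _ (hfix w hw), hee]
    have hpow2 : ∀ i : ℕ, i ≠ 0 → ∀ w, X w = 0 → ((1 - φ ^ q) ^ i) w = w - e w := by
      intro i hi
      induction i with
      | zero => exact absurd rfl hi
      | succ i ih =>
        intro w hw
        rw [pow_succ, Module.End.mul_apply, LinearMap.sub_apply, Module.End.one_apply,
          hpow q hq0 w hw]
        rcases Nat.eq_zero_or_pos i with rfl | hpos
        · simp
        · rw [ih hpos.ne' _ (by rw [map_sub, hw, hfix w hw, sub_zero]), map_sub, hee, sub_self,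
            sub_zero]
    rw [hπ, LinearMap.sub_apply, Module.End.one_apply, hpow2 q hq0 v hv', sub_sub_cancel]
  refine ⟨π, hπc, hππ, hπe, ?_, fun B hB heB => ?_⟩
  · have hXπ : Commute X π := (hπc u).sub_left (Commute.one_left π)
    have hnil : (π - e) ^ q = 0 := by
      refine pow_eq_zero_of_killsFixed (hXπ.sub_right hXe) (fun v hv => ?_) hX
      rw [LinearMap.sub_apply, hπe v ((hXv v).1 hv), sub_self]
    have hinj : ∀ a b : Module.End k M, a * a = a → (a - b) ^ q = 0 →
        Module.finrank k (LinearMap.range a) ≤ Module.finrank k (LinearMap.range b) := by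
      intro a b ha hab
      refine LinearMap.finrank_le_finrank_of_injective
        (f := (b.domRestrict (LinearMap.range a)).codRestrict (LinearMap.range b)
          fun v => ⟨v, rfl⟩) ?_
      rw [← LinearMap.ker_eq_bot]
      refine LinearMap.ker_eq_bot'.2 fun v hv => Subtype.ext ?_
      have hbv : b (v : M) = 0 := congrArg Subtype.val hv
      obtain ⟨w, hw⟩ := v.2
      have hav : (a - b) (v : M) = v := by
        rw [LinearMap.sub_apply, hbv, sub_zero, ← hw, ← Module.End.mul_apply, ha]
      have : ∀ i : ℕ, ((a - b) ^ i) (v : M) = v := by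
        intro i
        induction i with
        | zero => simp
        | succ i ih => rw [pow_succ, Module.End.mul_apply, hav, ih]
      have h := this q
      rw [hab, LinearMap.zero_apply] at h
      exact h.symm
    refine le_antisymm (hinj π e hππ hnil) (hinj e π he ?_)
    rw [← neg_sub, neg_pow, hnil, mul_zero]
  · let A : Module.End k M → Prop := fun T => ∀ a b, B (T a) b = B a (T b)
    have hA1 : A 1 := fun _ _ => rfl
    have hsub : ∀ S T, A S → A T → A (S - T) := fun S T hS hT a b => by
      simp only [LinearMap.sub_apply, map_sub, hS a b, hT a b]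
    have hpw : ∀ T, A T → ∀ i : ℕ, A (T ^ i) := by
      intro T hT i
      induction i with
      | zero => exact hA1
      | succ i ih =>
        intro a b
        conv_lhs => rw [pow_succ, Module.End.mul_apply, ih, hT]
        rw [← Module.End.mul_apply, ← pow_succ']
    have hAφ : A φ := by
      intro a b
      rw [hφ, LinearMap.sum_apply, LinearMap.sum_apply, map_sum, map_sum, LinearMap.sum_apply]
      refine Finset.sum_congr rfl fun c _ => ?_
      induction c using QuotientGroup.induction_on with
      | _ g =>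
        rw [hF]
        simp only [Module.End.mul_apply]
        have hgg : ∀ w, ρ g (ρ g⁻¹ w) = w := fun w => by
          rw [← Module.End.mul_apply, ← map_mul, mul_inv_cancel, map_one, Module.End.one_apply]
        calc B (ρ g (e (ρ g⁻¹ a))) b = B (ρ g (e (ρ g⁻¹ a))) (ρ g (ρ g⁻¹ b)) := by rw [hgg]
          _ = B (ρ g⁻¹ a) (e (ρ g⁻¹ b)) := by rw [hB, heB]
          _ = B (ρ g (ρ g⁻¹ a)) (ρ g (e (ρ g⁻¹ b))) := (hB g _ _).symm
          _ = _ := by rw [hgg]
    exact hsub _ _ hA1 (hpw _ (hsub _ _ hA1 (hpw φ hAφ q)) q)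

end Cfsg.Agent.SL2Mod
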